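import Cfsg.Agent.Lib.Helper7.BlockKer

set_option autoImplicit false
set_option linter.style.haveILetI false
open Cfsg
open scoped ComplexConjugate

namespace Cfsg.Agent.Lib.Helper7

universe u
variable {G : Type u} [Group G] {M : Ideal AlgInt} {p : ℕ}

/-- the kernel of a set of irreducible characters is a normal subgroup -/
theorem exists_blockKer_subgroup [Finite G] (B : Set (IrrCharacter G)) :
    ∃ K : Subgroup G, K.Normal ∧ (K : Set G) = blockKer B := by
  choose Kf hKn hKf using fun ψ : IrrCharacter G => exists_ker_subgroup (isCharacter_of_irr ψ.2)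
  refine ⟨⨅ ψ : B, Kf ψ, Subgroup.normal_iInf_normal fun ψ => hKn ψ, ?_⟩
  ext g
  simp only [SetLike.mem_coe, Subgroup.mem_iInf, blockKer, Set.mem_ofPred_eq, hKf, Subtype.forall]

/-- no `p`-singular element lies in the kernel of a block -/
theorem regular_of_mem_blockKer [Finite G] (hM : IsPModular p M) {B : Set (IrrCharacter G)}
    (hB : IsPBlock M B) {x : G} (hx : x ∈ blockKer B) (hxp : orderOf x = p) : False := by
  classical
  haveI := hM.2.1.isPrime
  haveI := Fintype.ofFinite G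
  haveI := Fintype.ofFinite (IrrCharacter G)
  have h1 : IsPPart p x x := ⟨1, mul_one x, Commute.one_right x, ⟨1, by rw [hxp, pow_one]⟩, by
    rw [orderOf_one]; exact hM.1.one_lt.ne' ∘ Nat.dvd_one.1⟩
  have h2 : IsPPart p (1 : G) 1 := isPPart_one_iff.2 (by
    rw [orderOf_one]; exact hM.1.one_lt.ne' ∘ Nat.dvd_one.1)
  have h3 : ¬ IsConj x (1 : G) := by
    intro h
    have : x = 1 := by
      have := isConj_one_right.1 h.symm
      exact this
    rw [this, orderOf_one] at hxp
    exact hM.1.one_lt.ne hxp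
  have h4 := block_orthogonality hM hB h1 h2 h3
  apply card_mul_blockCoeff_one_ne_zero hB
  rw [card_mul_blockCoeff, ← finsum_mem_eq_sum_indicator, ← h4]
  apply finsum_mem_congr rfl
  intro χ hχ
  rw [hx χ hχ]

/-- `S0938` -/
theorem blockKer_main [Finite G] (hM : IsPModular p M) {B : Set (IrrCharacter G)}
    (hB : IsPBlock M B) {χ : IrrCharacter G} (hχ : χ ∈ B) :
    ∃ K : Subgroup G, K.Normal ∧ (K : Set G) = blockKer B ∧ ¬ p ∣ Nat.card K ∧
      (∀ g ∈ K, (χ : G → ℂ) g = (χ : G → ℂ) 1) ∧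
      ∀ N : Subgroup G, N.Normal → ¬ p ∣ Nat.card N →
        (∀ g ∈ N, (χ : G → ℂ) g = (χ : G → ℂ) 1) → N ≤ K := by
  classical
  haveI := hM.2.1.isPrime
  haveI : Fact p.Prime := ⟨hM.1⟩
  obtain ⟨K, hKn, hK⟩ := exists_blockKer_subgroup B
  have hmem : ∀ g, g ∈ K ↔ g ∈ blockKer B := by
    intro g
    rw [← hK]; rfl
  refine ⟨K, hKn, hK, ?_, ?_, ?_⟩
  · intro hd
    obtain ⟨x, hx⟩ := exists_prime_orderOf_dvd_card' p hd
    rw [← Subgroup.orderOf_coe] at hx
    exact regular_of_mem_blockKer hM hB ((hmem _).1 x.2) hx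
  · intro g hg
    exact (hmem g).1 hg χ hχ
  · intro N hN hpN hNχ g hg
    rw [hmem]
    intro ψ hψ
    haveI := hN
    exact ker_of_sameBlock hM (sameBlock_of_mem hB hχ hψ) N hpN hNχ g hg

end Cfsg.Agent.Lib.Helper7
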