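import Cfsg.Agent.Lib.Helper7.BlockKnorr3
import Cfsg.Agent.Lib.Helper7.BlockSecondMain

set_option autoImplicit false
set_option linter.style.haveILetI false
set_option linter.unusedSectionVars false
open Cfsg
open scoped ComplexConjugate

namespace Cfsg.Agent.Lib.Helper7

universe u
variable {G : Type u} [Group G] {M : Ideal AlgInt} {p : ℕ}

section conv

theorem inducedCentralCharIn_eq {N K : Subgroup G} (hKN : K ≤ N) (ξ : IrrCharacter K) (n : N) :
    inducedCentralCharIn N K (ξ : K → ℂ) (n : G)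
      = inducedCentralChar (K.subgroupOf N) (towerIrr hKN ξ : K.subgroupOf N → ℂ) n := by
  unfold inducedCentralCharIn inducedCentralChar
  symm
  apply finsum_mem_eq_of_bijOn (Subgroup.subgroupOfEquivOfLe hKN)
  · apply Equiv.bijOn (Subgroup.subgroupOfEquivOfLe hKN).toEquiv
    intro k'
    constructor
    · rintro ⟨x, hx⟩
      apply isConj_iff.2
      refine ⟨x⁻¹, ?_⟩
      apply Subtype.ext
      have h2 : ((Subgroup.subgroupOfEquivOfLe hKN k' : K) : G) = ((k' : N) : G) := rfl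
      have hx' : (x : G) * ((k' : N) : G) * (x : G)⁻¹ = n := hx
      simp only [Subgroup.coe_mul, Subgroup.coe_inv, inv_inv]
      rw [← hx']
      group
    · intro h
      obtain ⟨c, hc⟩ := isConj_iff.1 h
      refine ⟨c⁻¹, ?_⟩
      have h2 : ((Subgroup.subgroupOfEquivOfLe hKN k' : K) : G) = ((k' : N) : G) := rfl
      change ((c⁻¹ : N) : G) * ((Subgroup.subgroupOfEquivOfLe hKN k' : K) : G) * ((c⁻¹ : N) : G)⁻¹ = n
      rw [h2, ← hc]
      simp only [Subgroup.coe_mul, Subgroup.coe_inv, inv_inv]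
      group
  · intro k' _
    rfl

theorem isInducedBlock_of_isInducedBlockIn {N K : Subgroup G} (hKN : K ≤ N)
    {e : Set (IrrCharacter K)} {d : Set (IrrCharacter N)} (h : IsInducedBlockIn M N K e d) :
    IsInducedBlock M (K.subgroupOf N) (towerBlock hKN e) d := by
  refine ⟨isPBlock_blockComap _ h.1, h.2.1, fun ξ' hξ' χ hχ n => ?_⟩
  obtain ⟨ξ, rfl⟩ : ∃ ξ, ξ' = towerIrr hKN ξ := ⟨_, (irrComap_irrComap_symm _ ξ').symm⟩
  rw [← inducedCentralCharIn_eq hKN ξ n]
  exact h.2.2 ξ ((irrComap_mem_blockComap _).1 hξ') χ hχ n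

end conv

section part1
variable [Fintype G] (N H : Subgroup G) [hN : N.Normal] [Fintype N] [Fintype H]
  [Fintype ↥(H ⊓ N)] [Fintype ((H ⊓ N).subgroupOf H)] [Fintype ((H ⊓ N).subgroupOf N)]

instance normal_inf_subgroupOf : ((H ⊓ N).subgroupOf H).Normal := by
  rw [Subgroup.inf_subgroupOf_left]
  infer_instance

/-- If `c` covers `e`, `c^G = B` and `e^N = d`, then `B` covers `d`. -/
theorem covers_of_induced_of_covers [M.IsPrime] {c : Set (IrrCharacter H)}
    {B : Set (IrrCharacter G)} (hind : IsInducedBlock M H c B) {e : Set (IrrCharacter ↥(H ⊓ N))}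
    (hcov : Covers ((H ⊓ N).subgroupOf H) c (towerBlock inf_le_left e))
    {d : Set (IrrCharacter N)}
    (hed : IsInducedBlock M ((H ⊓ N).subgroupOf N) (towerBlock inf_le_right e) d) :
    Covers N B d := by
  classical
  apply covers_of_congr N hind.2.1 hed.2.1
  intro χ hχ θ hθ n
  set z : G → ℂ := fun x => if IsConj (n : G) x then (1 : ℂ) else 0 with hz_def
  have hz : IsClassFunction G z := isClassFunction_indicator (n : G)
  have hzS : ∀ g, MemLocalRing M (z g) := fun x => memLocalRing_indicator_isConj (M := M) (n : G) x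
  obtain ⟨ψ, hψ, ξ', hξ', hcon⟩ := hcov
  obtain ⟨ξ, rfl⟩ : ∃ ξ, ξ' = towerIrr inf_le_left ξ := ⟨_, (irrComap_irrComap_symm _ ξ').symm⟩
  have hξ : ξ ∈ e := (irrComap_mem_blockComap _).1 hξ'
  have h1 := induced_congr hind hψ hχ hz hzS
  have hext : extH ((H ⊓ N).subgroupOf H) (resH ((H ⊓ N).subgroupOf H) (resH H z)) = resH H z := by
    funext y
    by_cases hy : y ∈ (H ⊓ N).subgroupOf H
    · rw [extH_of_mem _ _ hy]; rfl
    · rw [extH_of_not_mem _ _ hy]
      symm
      simp only [resH, hz_def]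
      rw [if_neg]
      intro hc
      apply hy
      obtain ⟨t, ht⟩ := isConj_iff.1 hc
      have hyN : (y : G) ∈ N := by rw [← ht]; exact hN.conj_mem _ n.2 t
      exact ⟨y.2, hyN⟩
  have h2 : Om (resH H z) ψ
      = Om (resH ((H ⊓ N).subgroupOf H) (resH H z)) (towerIrr inf_le_left ξ) := by
    have := Om_extH_eq_of_constituent ((H ⊓ N).subgroupOf H)
      (f := resH ((H ⊓ N).subgroupOf H) (resH H z))
      (by rw [hext]; exact isClassFunction_resH H hz) hcon
    rwa [hext] at this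
  rw [Om_resH_tower] at h2
  have h4 := induced_congr hed ((irrComap_mem_blockComap _).2 hξ) hθ (isClassFunction_resH N hz)
    (fun g => hzS g)
  rw [Om_resH_tower] at h4
  rw [centralChar_eq_Om, inducedCentralChar_eq_Om]
  rw [h2] at h1
  have := memLocalIdeal_sub h4 h1
  rwa [sub_sub_sub_cancel_left] at this

end part1

section transportT

theorem blockComap_injective {A A' : Type u} [Group A] [Group A'] (e : A ≃* A')
    {b b' : Set (IrrCharacter A')} (h : blockComap e b = blockComap e b') : b = b' := by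
  ext θ
  rw [← irrComap_mem_blockComap e, h, irrComap_mem_blockComap]

theorem isPBlock_of_blockComap {A A' : Type u} [Group A] [Group A'] (e : A ≃* A')
    {b : Set (IrrCharacter A')} (h : IsPBlock M (blockComap e b)) : IsPBlock M b := by
  obtain ⟨χ, hχ⟩ := h
  obtain ⟨χ0, rfl⟩ : ∃ χ0, χ = irrComap e χ0 := ⟨_, (irrComap_irrComap_symm _ χ).symm⟩
  rw [← blockComap_blockOf] at hχ
  exact ⟨χ0, blockComap_injective e hχ⟩

variable (N H : Subgroup G) [hN : N.Normal]

theorem conj_mem_inf (h : H) (l : ↥(H ⊓ N)) : (h : G) * l * (h : G)⁻¹ ∈ H ⊓ N :=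
  ⟨H.mul_mem (H.mul_mem h.2 l.2.1) (H.inv_mem h.2), hN.conj_mem _ l.2.2 _⟩

/-- conjugation by `h ∈ H` on `H ⊓ N` -/
def conjL (h : H) : ↥(H ⊓ N) ≃ ↥(H ⊓ N) where
  toFun l := ⟨(h : G) * l * (h : G)⁻¹, conj_mem_inf N H h l⟩
  invFun l := ⟨((h⁻¹ : H) : G) * l * ((h⁻¹ : H) : G)⁻¹, conj_mem_inf N H h⁻¹ l⟩
  left_inv l := by
    apply Subtype.ext
    simp [mul_assoc]
  right_inv l := by
    apply Subtype.ext
    simp [mul_assoc]

theorem inducedCentralCharIn_conj (ξ : IrrCharacter ↥(H ⊓ N)) (h : H) (n : G) :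
    inducedCentralCharIn N (H ⊓ N) (conjIrrIn inf_le_left ξ h : ↥(H ⊓ N) → ℂ) n
      = inducedCentralCharIn N (H ⊓ N) (ξ : ↥(H ⊓ N) → ℂ) ((h : G) * n * (h : G)⁻¹) := by
  unfold inducedCentralCharIn
  apply finsum_mem_eq_of_bijOn (conjL N H h)
  · apply Equiv.bijOn (conjL N H h)
    intro l
    constructor
    · rintro ⟨x, hx⟩
      have hx' : (x : G) * ((h : G) * l * (h : G)⁻¹) * (x : G)⁻¹ = (h : G) * n * (h : G)⁻¹ := hx
      refine ⟨⟨(h : G)⁻¹ * x * (h : G)⁻¹⁻¹, hN.conj_mem _ x.2 _⟩, ?_⟩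
      have : n = (h : G)⁻¹ * ((h : G) * n * (h : G)⁻¹) * (h : G) := by group
      rw [this, ← hx']
      simp only
      group
    · rintro ⟨x, hx⟩
      refine ⟨⟨(h : G) * x * (h : G)⁻¹, hN.conj_mem _ x.2 _⟩, ?_⟩
      change (h : G) * x * (h : G)⁻¹ * ((h : G) * l * (h : G)⁻¹) * ((h : G) * x * (h : G)⁻¹)⁻¹ = _
      rw [← hx]
      group
  · intro l _
    rw [conjIrrIn_apply inf_le_left ξ h l (conj_mem_inf N H h l),
      conjIrrIn_apply inf_le_left ξ h 1 (conj_mem_inf N H h 1)]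
    have : (⟨(h : G) * ((1 : ↥(H ⊓ N)) : G) * (h : G)⁻¹, conj_mem_inf N H h 1⟩ : ↥(H ⊓ N)) = 1 := by
      apply Subtype.ext
      simp
    rw [this]
    rfl

theorem conjIrrIn_inv_cancel (ξ : IrrCharacter ↥(H ⊓ N)) (h : H) :
    conjIrrIn inf_le_left (conjIrrIn inf_le_left ξ h⁻¹) h = ξ := by
  apply Subtype.ext
  funext l
  rw [conjIrrIn_apply inf_le_left _ h l (conj_mem_inf N H h l),
    conjIrrIn_apply inf_le_left ξ h⁻¹ _ (conj_mem_inf N H h⁻¹ _)]
  have : (⟨((h⁻¹ : H) : G) * ((⟨(h : G) * l * (h : G)⁻¹, conj_mem_inf N H h l⟩ : ↥(H ⊓ N)) : G)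
      * ((h⁻¹ : H) : G)⁻¹, conj_mem_inf N H h⁻¹ _⟩ : ↥(H ⊓ N)) = l := by
    apply Subtype.ext
    simp [mul_assoc]
  rw [this]

variable [Fintype G] [Fintype N] [Fintype H] [Fintype ↥((H ⊓ N).subgroupOf H)]

/-- the conjugate of a block of `H ⊓ N` by `h ∈ H` -/
def conjBlockIn (e : Set (IrrCharacter ↥(H ⊓ N))) (h : H) : Set (IrrCharacter ↥(H ⊓ N)) :=
  {ξ | conjIrrIn inf_le_left ξ h⁻¹ ∈ e}

theorem towerBlock_conjBlockIn (e : Set (IrrCharacter ↥(H ⊓ N))) (h : H) :
    towerBlock inf_le_left (conjBlockIn N H e h)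
      = conjBlock ((H ⊓ N).subgroupOf H) (towerBlock inf_le_left e) h := by
  ext ξ'
  obtain ⟨ξ, rfl⟩ : ∃ ξ, ξ' = towerIrr inf_le_left ξ := ⟨_, (irrComap_irrComap_symm _ ξ').symm⟩
  rw [irrComap_mem_blockComap]
  unfold conjBlock conjBlockIn
  rw [Set.mem_ofPred_eq, Set.mem_ofPred_eq, ← towerIrr_conjIrrIn, irrComap_mem_blockComap]

theorem isPBlock_conjBlockIn {e : Set (IrrCharacter ↥(H ⊓ N))} (he : IsPBlock M e) (h : H) :
    IsPBlock M (conjBlockIn N H e h) := by
  apply isPBlock_of_blockComap (Subgroup.subgroupOfEquivOfLe (inf_le_left : H ⊓ N ≤ H))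
  have := towerBlock_conjBlockIn N H e h
  unfold towerBlock at this
  rw [this]
  exact isPBlock_conjBlock _ (isPBlock_blockComap _ he) h

theorem isInducedBlock_conj {e1 : Set (IrrCharacter ↥(H ⊓ N))} {d1 : Set (IrrCharacter N)}
    (hed : IsInducedBlock M ((H ⊓ N).subgroupOf N) (towerBlock inf_le_right e1) d1) (h : H) :
    IsInducedBlock M ((H ⊓ N).subgroupOf N) (towerBlock inf_le_right (conjBlockIn N H e1 h))
      (conjBlock N d1 (h : G)) := by
  have he1 : IsPBlock M e1 := isPBlock_of_blockComap _ hed.1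
  refine ⟨isPBlock_blockComap _ (isPBlock_conjBlockIn N H he1 h), isPBlock_conjBlock N hed.2.1 _,
    fun ξ' hξ' θ' hθ' n => ?_⟩
  obtain ⟨ξ, rfl⟩ : ∃ ξ, ξ' = towerIrr inf_le_right ξ := ⟨_, (irrComap_irrComap_symm _ ξ').symm⟩
  have hξ0 : ξ ∈ conjBlockIn N H e1 h := (irrComap_mem_blockComap _).1 hξ'
  have hξ : conjIrrIn inf_le_left ξ h⁻¹ ∈ e1 := hξ0
  have hθ : conjIrr N θ' (h : G)⁻¹ ∈ d1 := hθ'
  have h1 := hed.2.2 _ ((irrComap_mem_blockComap _).2 hξ) _ hθ
    ⟨(h : G) * n * (h : G)⁻¹, hN.conj_mem _ n.2 _⟩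
  rw [← inducedCentralCharIn_eq, ← centralChar_conjIrr, conjIrr_inv_cancel] at h1
  rw [← inducedCentralCharIn_eq]
  have h2 := inducedCentralCharIn_conj N H (conjIrrIn inf_le_left ξ h⁻¹) h (n : G)
  rw [conjIrrIn_inv_cancel] at h2
  rw [h2]
  exact h1

end transportT

section lemE

theorem defectGroup_of_induced_card {A : Type u} [Group A] [Finite A] (hM : IsPModular p M)
    {Q K : Subgroup A} (hQ : IsPGroup p Q) (hQK : Q ≤ K)
    (hKN : K ≤ Subgroup.normalizer (Q : Set A)) {e' : Set (IrrCharacter K)}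
    {d' : Set (IrrCharacter A)} (hind : IsInducedBlock M K e' d')
    (hcard : Nat.card Q = p ^ blockDefect p d') :
    IsDefectGroup p M e' (Q.subgroupOf K) ∧ IsDefectGroup p M d' Q := by
  obtain ⟨D1, hD1⟩ := exists_defectGroup hM hind.1
  haveI := normal_subgroupOf_of_le_normalizer hKN
  have h1 : Q.subgroupOf K ≤ D1 := normal_le_defectGroup hM hind.1 hD1 _ hQ.comap_subtype
  obtain ⟨E, hE, hle⟩ := defectGroup_induced_le hM hind hD1
  have hQE : Q ≤ E := by
    intro x hx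
    exact hle ⟨⟨x, hQK hx⟩, h1 hx, rfl⟩
  have hEq : Q = E :=
    Subgroup.eq_of_le_of_card_ge hQE (by rw [card_defectGroup hM hind.2.1 hE, hcard])
  have hD1eq : Q.subgroupOf K = D1 := le_antisymm h1 (fun x hx => by
    have := hle ⟨x, hx, rfl⟩
    rw [← hEq] at this
    exact this)
  exact ⟨hD1eq ▸ hD1, hEq ▸ hE⟩

theorem normalizer_inf_subgroupOf {Q N : Subgroup G} (hQN : Q ≤ N) :
    (Subgroup.normalizer (Q : Set G) ⊓ N).subgroupOf N
      = Subgroup.normalizer ((Q.subgroupOf N : Subgroup N) : Set N) := by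
  ext x
  rw [Subgroup.mem_subgroupOf, Subgroup.mem_inf, Subgroup.mem_set_normalizer_iff,
    Subgroup.mem_set_normalizer_iff]
  constructor
  · rintro ⟨h, -⟩ y
    exact h y
  · intro h
    refine ⟨fun y => ?_, x.2⟩
    constructor
    · intro hy
      exact (h ⟨y, hQN hy⟩).1 hy
    · intro hy
      have hyN : y ∈ N := by
        have h1 := N.mul_mem (N.mul_mem (N.inv_mem x.2) (hQN hy)) x.2
        have : (x : G)⁻¹ * ((x : G) * y * (x : G)⁻¹) * (x : G) = y := by group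
        rwa [this] at h1
      exact (h ⟨y, hyN⟩).2 hy

theorem mem_normalizer_of_le_map_conj [Finite G] {Q : Subgroup G} {x : G}
    (h : Q ≤ Q.map (MulAut.conj x).toMonoidHom) : x ∈ Subgroup.normalizer (Q : Set G) := by
  have e : Q = Q.map (MulAut.conj x).toMonoidHom :=
    Subgroup.eq_of_le_of_card_ge h
      (by rw [Subgroup.card_map_of_injective (MulAut.conj x).injective])
  rw [Subgroup.mem_set_normalizer_iff]
  intro y
  constructor
  · intro hy
    have : x * y * x⁻¹ ∈ Q.map (MulAut.conj x).toMonoidHom := ⟨y, hy, rfl⟩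
    rw [← e] at this
    exact this
  · intro hy
    have hy' : x * y * x⁻¹ ∈ Q := hy
    rw [e] at hy'
    obtain ⟨q, hq, hqy⟩ := hy'
    have : q = y := (MulAut.conj x).injective hqy
    rw [← this]
    exact hq

end lemE

section part3
variable [Fintype G] (N H : Subgroup G) [hN : N.Normal] [Fintype N] [Fintype H]
  [Fintype ↥(H ⊓ N)] [Fintype ((H ⊓ N).subgroupOf H)] [Fintype ((H ⊓ N).subgroupOf N)]

/-- Harris–Knörr, key step: a block `c` of `N_G(Q)` inducing a block that covers `d` covers the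
Brauer correspondent `e` of `d`. -/
theorem covers_of_induced_covers [Fact p.Prime] (hM : IsPModular p M) {Q : Subgroup G}
    (hQ : IsPGroup p Q) (hQN : Q ≤ N) (hH : H = Subgroup.normalizer (Q : Set G))
    {d : Set (IrrCharacter N)} (hdQ : IsDefectGroup p M d (Q.subgroupOf N))
    {e : Set (IrrCharacter ↥(H ⊓ N))}
    (hed : IsInducedBlock M ((H ⊓ N).subgroupOf N) (towerBlock inf_le_right e) d)
    {c : Set (IrrCharacter H)} {B : Set (IrrCharacter G)} (hind : IsInducedBlock M H c B)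
    (hcov : Covers N B d) : Covers ((H ⊓ N).subgroupOf H) c (towerBlock inf_le_left e) := by
  classical
  haveI := IsPModular.isPrime hM
  have hd := hed.2.1
  have hB := hind.2.1
  obtain ⟨ψ, hψ⟩ := isPBlock_nonempty hind.1
  obtain ⟨ξ1', hξ1'⟩ := exists_constituent_res ((H ⊓ N).subgroupOf H) ψ
  obtain ⟨ξ1, rfl⟩ : ∃ ξ, ξ1' = towerIrr inf_le_left ξ := ⟨_, (irrComap_irrComap_symm _ ξ1').symm⟩
  set e1 := blockOf M (ξ1 : ↥(H ⊓ N) → ℂ) with he1_def
  have he1 : IsPBlock M e1 := ⟨ξ1, rfl⟩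
  have hcov1 : Covers ((H ⊓ N).subgroupOf H) c (towerBlock inf_le_left e1) :=
    ⟨ψ, hψ, towerIrr inf_le_left ξ1, (irrComap_mem_blockComap _).2 (self_mem_blockOf ξ1), hξ1'⟩
  have hnorm : (H ⊓ N).subgroupOf N
      = Subgroup.normalizer ((Q.subgroupOf N : Subgroup N) : Set N) := by
    rw [hH]; exact normalizer_inf_subgroupOf hQN
  have hQ' : IsPGroup p (Q.subgroupOf N) := hQ.comap_subtype
  have hQle : Q.subgroupOf N ≤ (H ⊓ N).subgroupOf N := by
    rw [hnorm]; exact le_normalizer' _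
  have hCle : Subgroup.centralizer ((Q.subgroupOf N : Subgroup N) : Set N)
      ≤ (H ⊓ N).subgroupOf N := by
    rw [hnorm]; exact centralizer_le_normalizer' _
  obtain ⟨d1, hd1⟩ := inducedBlockDefined_of_le hM hQ' hQle hCle hnorm.le
    (isPBlock_blockComap (Subgroup.subgroupOfEquivOfLe (inf_le_right : H ⊓ N ≤ N)) he1)
  have hcovd1 : Covers N B d1 := covers_of_induced_of_covers N H hind hcov1 hd1
  obtain ⟨χ, hχ, θ, hθ, hcon⟩ := hcov
  obtain ⟨χ', hχ', θ1, hθ1, hcon'⟩ := hcovd1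
  obtain ⟨g, θ2, hθ2, e2⟩ := mem_conjClosure_of_cover N hB hd hχ hθ hcon hχ' hcon'
  have hd1eq : d1 = conjBlock N d g := by
    rw [isPBlock_eq_blockOf hd1.2.1 hθ1, isPBlock_eq_blockOf (isPBlock_conjBlock N hd g)
      (show θ1 ∈ conjBlock N d g by rw [e2]; exact (conjIrr_mem_conjBlock N d g θ2).2 hθ2)]
  have hdd : blockDefect p d1 = blockDefect p d := by
    rw [hd1eq, conjBlock_eq_blockComap, blockDefect_blockComap]
  have hcardQ : Nat.card (Q.subgroupOf N) = p ^ blockDefect p d := card_defectGroup hM hd hdQ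
  obtain ⟨-, hQd1⟩ := defectGroup_of_induced_card hM hQ' hQle hnorm.le hd1 (by rw [hdd, hcardQ])
  have hQg := isDefectGroup_conjBlock (M := M) (p := p) N hdQ g
  rw [← hd1eq] at hQg
  obtain ⟨n, hn⟩ := defectGroup_le_conj hM hd1.2.1 hQg hQd1
  have hh : (n : G) * g⁻¹ ∈ H := by
    rw [hH]
    apply mem_normalizer_of_le_map_conj
    intro x hx
    obtain ⟨y, hy, hyx⟩ := hn (show (⟨x, hQN hx⟩ : N) ∈ Q.subgroupOf N from hx)
    obtain ⟨q, hq, hqy⟩ := (Subgroup.mem_subgroupOf.1 hy)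
    refine ⟨q, hq, ?_⟩
    have h1 : (n : G) * (y : G) * (n : G)⁻¹ = x := by
      have := congrArg Subtype.val hyx
      simpa using this
    have h2 : g⁻¹ * q * g⁻¹⁻¹ = (y : G) := hqy
    change (n : G) * g⁻¹ * q * ((n : G) * g⁻¹)⁻¹ = x
    rw [← h1, ← h2]
    group
  have hdeq : conjBlock N d1 ((⟨(n : G) * g⁻¹, hh⟩ : H) : G) = d := by
    ext θ'
    rw [hd1eq]
    unfold conjBlock
    rw [Set.mem_ofPred_eq, Set.mem_ofPred_eq, conjIrr_conjIrr]
    have : ((n : G) * g⁻¹)⁻¹ * g⁻¹ ∈ N := by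
      have := hN.conj_mem _ (N.inv_mem n.2) g
      have e3 : ((n : G) * g⁻¹)⁻¹ * g⁻¹ = g * (n : G)⁻¹ * g⁻¹ := by group
      rw [e3]; exact this
    rw [conjIrr_of_mem N θ' this]
  have hind2 := isInducedBlock_conj N H hd1 ⟨(n : G) * g⁻¹, hh⟩
  rw [hdeq] at hind2
  have hdef2 := (defectGroup_of_induced_card hM hQ' hQle hnorm.le hind2 hcardQ).1
  have hdef := (defectGroup_of_induced_card hM hQ' hQle hnorm.le hed hcardQ).1
  have heq := eq_of_induced_normalizer hM hQ' hnorm hdef2 hdef hind2 hed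
  have heq' : conjBlockIn N H e1 ⟨(n : G) * g⁻¹, hh⟩ = e := blockComap_injective _ heq
  rw [← heq', towerBlock_conjBlockIn]
  exact covers_conjBlock _ hcov1 _

end part3

section part4

theorem blockComap_blockComap_symm {A A' : Type u} [Group A] [Group A'] (e : A ≃* A')
    (b : Set (IrrCharacter A)) : blockComap e (blockComap e.symm b) = b := by
  ext θ
  rw [mem_blockComap, irrComap_mem_blockComap]

theorem coe_mem_map_subtype {H : Subgroup G} {D : Subgroup H} (z : H) :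
    (z : G) ∈ D.map H.subtype ↔ z ∈ D :=
  Subgroup.mem_map_iff_mem H.subtype_injective

theorem exists_correspondent_tower [Finite G] [Fact p.Prime] (hM : IsPModular p M)
    {H : Subgroup G} {c : Set (IrrCharacter H)} (hc : IsPBlock M c) {D : Subgroup H}
    (hD : IsDefectGroup p M c D)
    (hKH : Subgroup.normalizer ((D.map H.subtype : Subgroup G) : Set G) ≤ H) :
    ∃ b : Set (IrrCharacter (Subgroup.normalizer ((D.map H.subtype : Subgroup G) : Set G))),
      IsPBlock M b ∧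
      IsInducedBlock M ((Subgroup.normalizer ((D.map H.subtype : Subgroup G) : Set G)).subgroupOf H)
        (towerBlock hKH b) c ∧
      IsDefectGroup p M b ((D.map H.subtype).subgroupOf
        (Subgroup.normalizer ((D.map H.subtype : Subgroup G) : Set G))) := by
  classical
  set K := Subgroup.normalizer ((D.map H.subtype : Subgroup G) : Set G) with hK_def
  have hPH : D ≤ K.subgroupOf H := by
    intro y hy
    exact le_normalizer' _ ((coe_mem_map_subtype y).2 hy)
  have hCH : Subgroup.centralizer (D : Set H) ≤ K.subgroupOf H := by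
    intro y hy
    apply centralizer_le_normalizer'
    rw [Subgroup.mem_centralizer_iff]
    rintro _ ⟨z, hz, rfl⟩
    have := Subgroup.mem_centralizer_iff.1 hy z hz
    exact congrArg Subtype.val this
  have hHN : K.subgroupOf H ≤ Subgroup.normalizer (D : Set H) := by
    intro y hy
    rw [Subgroup.mem_set_normalizer_iff]
    intro z
    have h1 := (Subgroup.mem_set_normalizer_iff.1 (Subgroup.mem_subgroupOf.1 hy)) (z : G)
    have h2 : (y : G) * z * (y : G)⁻¹ = ((y * z * y⁻¹ : H) : G) := by simp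
    rw [h2] at h1
    exact ⟨fun hz => (coe_mem_map_subtype _).1 (h1.1 ((coe_mem_map_subtype z).2 hz)),
      fun hz => (coe_mem_map_subtype _).1 (h1.2 ((coe_mem_map_subtype _).2 hz))⟩
  obtain ⟨b', hb', hdef'⟩ := exists_brauer_correspondent hM hPH hCH hHN hc hD
  refine ⟨blockComap (Subgroup.subgroupOfEquivOfLe hKH).symm b',
    isPBlock_blockComap _ hb'.1, ?_, ?_⟩
  · unfold towerBlock
    rw [blockComap_blockComap_symm]
    exact hb'
  · have := isDefectGroup_blockComap (M := M) (p := p) (Subgroup.subgroupOfEquivOfLe hKH).symm hdef'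
    convert this using 1
    ext x
    rw [Subgroup.mem_subgroupOf, Subgroup.mem_comap, Subgroup.mem_subgroupOf]
    exact coe_mem_map_subtype (⟨(x : G), hKH x.2⟩ : H)

variable [Fintype G] (N H : Subgroup G) [hN : N.Normal] [Fintype N] [Fintype H]
  [Fintype ↥(H ⊓ N)] [Fintype ((H ⊓ N).subgroupOf H)] [Fintype ((H ⊓ N).subgroupOf N)]

theorem map_inf_eq_of_inf_eq {Q : Subgroup G} (hQH : Q ≤ H) {D : Subgroup H}
    (h : D ⊓ (H ⊓ N).subgroupOf H = Q.subgroupOf H) : D.map H.subtype ⊓ N = Q := by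
  ext x
  constructor
  · rintro ⟨⟨y, hy, rfl⟩, hxN⟩
    have : y ∈ D ⊓ (H ⊓ N).subgroupOf H := ⟨hy, ⟨y.2, hxN⟩⟩
    rw [h] at this
    exact this
  · intro hx
    have : (⟨x, hQH hx⟩ : H) ∈ D ⊓ (H ⊓ N).subgroupOf H := by rw [h]; exact hx
    exact ⟨⟨_, this.1, rfl⟩, this.2.2⟩

theorem normalizer_le_of_inf_eq {Q P : Subgroup G} (h : P ⊓ N = Q) :
    Subgroup.normalizer (P : Set G) ≤ Subgroup.normalizer (Q : Set G) := by
  intro x hx
  rw [Subgroup.mem_set_normalizer_iff] at hx ⊢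
  intro y
  rw [← h]
  constructor
  · rintro ⟨h1, h2⟩
    exact ⟨(hx y).1 h1, hN.conj_mem _ h2 _⟩
  · rintro ⟨h1, h2⟩
    refine ⟨(hx y).2 h1, ?_⟩
    have := hN.conj_mem _ h2 x⁻¹
    have e : x⁻¹ * (x * y * x⁻¹) * x⁻¹⁻¹ = y := by group
    rwa [e] at this

/-- Harris–Knörr, injectivity. -/
theorem eq_of_covers_of_induced [Fact p.Prime] (hM : IsPModular p M) {Q : Subgroup G}
    (hQN : Q ≤ N) (hH : H = Subgroup.normalizer (Q : Set G))
    {e : Set (IrrCharacter ↥(H ⊓ N))} (he : IsPBlock M e)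
    (heQ : IsDefectGroup p M e (Q.subgroupOf (H ⊓ N)))
    {c₁ c₂ : Set (IrrCharacter H)} {B : Set (IrrCharacter G)}
    (hind₁ : IsInducedBlock M H c₁ B) (hind₂ : IsInducedBlock M H c₂ B)
    (hcov₁ : Covers ((H ⊓ N).subgroupOf H) c₁ (towerBlock inf_le_left e))
    (hcov₂ : Covers ((H ⊓ N).subgroupOf H) c₂ (towerBlock inf_le_left e)) : c₁ = c₂ := by
  classical
  haveI := IsPModular.isPrime hM
  have hQH : Q ≤ H := hH ▸ le_normalizer' Q
  have heH : IsPBlock M (towerBlock (inf_le_left : H ⊓ N ≤ H) e) := isPBlock_blockComap _ he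
  have hQdef : IsDefectGroup p M (towerBlock (inf_le_left : H ⊓ N ≤ H) e)
      ((Q.subgroupOf H).subgroupOf ((H ⊓ N).subgroupOf H)) := by
    have := isDefectGroup_blockComap (M := M) (p := p)
      (Subgroup.subgroupOfEquivOfLe (inf_le_left : H ⊓ N ≤ H)) heQ
    convert this using 1
    ext x
    rfl
  have hQle : Q.subgroupOf H ≤ (H ⊓ N).subgroupOf H := fun y hy => ⟨y.2, hQN hy⟩
  obtain ⟨D₁, hD₁, hD₁L⟩ := knorr _ hM heH hind₁.1 hcov₁ hQle hQdef
  obtain ⟨D₂, hD₂, hD₂L⟩ := knorr _ hM heH hind₂.1 hcov₂ hQle hQdef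
  have hD₁N := map_inf_eq_of_inf_eq N H hQH hD₁L
  have hD₂N := map_inf_eq_of_inf_eq N H hQH hD₂L
  have hK₁ : Subgroup.normalizer ((D₁.map H.subtype : Subgroup G) : Set G) ≤ H :=
    (normalizer_le_of_inf_eq N hD₁N).trans hH.ge
  have hK₂ : Subgroup.normalizer ((D₂.map H.subtype : Subgroup G) : Set G) ≤ H :=
    (normalizer_le_of_inf_eq N hD₂N).trans hH.ge
  have hp₁ : IsPGroup p (D₁.map H.subtype) := (isPGroup_of_defectGroup hM hind₁.1 hD₁).map _
  have hp₂ : IsPGroup p (D₂.map H.subtype) := (isPGroup_of_defectGroup hM hind₂.1 hD₂).map _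
  obtain ⟨b₁, hb₁, hb₁c, hb₁D⟩ := exists_correspondent_tower hM hind₁.1 hD₁ hK₁
  obtain ⟨b₂, hb₂, hb₂c, hb₂D⟩ := exists_correspondent_tower hM hind₂.1 hD₂ hK₂
  have hb₁B := isInducedBlock_tower_trans hK₁ hb₁ hb₁c hind₁
  have hb₂B := isInducedBlock_tower_trans hK₂ hb₂ hb₂c hind₂
  have hBD₁ := defectGroup_of_induced_normalizer hM hp₁ rfl hb₁D hb₁B
  have hBD₂ := defectGroup_of_induced_normalizer hM hp₂ rfl hb₂D hb₂B
  obtain ⟨t, ht⟩ := defectGroup_le_conj hM hind₁.2.1 hBD₂ hBD₁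
  have hteq : D₁.map H.subtype = (D₂.map H.subtype).map (MulAut.conj t).toMonoidHom := by
    apply Subgroup.eq_of_le_of_card_ge ht
    rw [Subgroup.card_map_of_injective (MulAut.conj t).injective,
      card_defectGroup hM hind₁.2.1 hBD₁, card_defectGroup hM hind₁.2.1 hBD₂]
  have htH : t ∈ H := by
    rw [hH]
    apply mem_normalizer_of_le_map_conj
    intro x hx
    have hx1 : x ∈ D₁.map H.subtype ⊓ N := by rw [hD₁N]; exact hx
    have hx2 := hx1.1
    rw [hteq] at hx2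
    obtain ⟨y, hy, hyx⟩ := hx2
    refine ⟨y, ?_, hyx⟩
    rw [← hD₂N]
    refine ⟨hy, ?_⟩
    have h3 : t * y * t⁻¹ = x := hyx
    have := hN.conj_mem _ hx1.2 t⁻¹
    rw [← h3] at this
    have e3 : t⁻¹ * (t * y * t⁻¹) * t⁻¹⁻¹ = y := by group
    rwa [e3] at this
  have hD₂' : IsDefectGroup p M c₂ D₁ := by
    have := Cfsg.Agent.Lib.Helper24.isDefectGroup_conj hD₂ (⟨t, htH⟩ : H)
    convert this using 1
    apply Subgroup.map_injective H.subtype_injective
    rw [hteq, Subgroup.map_map, Subgroup.map_map]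
    congr 1
  obtain ⟨b₃, hb₃, hb₃c, hb₃D⟩ := exists_correspondent_tower hM hind₂.1 hD₂' hK₁
  have hb₃B := isInducedBlock_tower_trans hK₁ hb₃ hb₃c hind₂
  have hbeq := eq_of_induced_normalizer hM hp₁ rfl hb₁D hb₃D hb₁B hb₃B
  rw [← hbeq] at hb₃c
  exact Cfsg.Agent.Lib.Helper24.induced_unique hb₁c hb₃c

end part4

end Cfsg.Agent.Lib.Helper7
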