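import Cfsg.Agent.Lib.Helper7.BlockPCons
import Cfsg.Prelude.Def_BlockLocal

set_option autoImplicit false
set_option linter.style.haveILetI false
set_option linter.unusedSectionVars false
open Cfsg
open scoped ComplexConjugate

namespace Cfsg.Agent.Lib.Helper7

universe u
variable {G : Type u} [Group G] {M : Ideal AlgInt} {p : ℕ}

section general
variable [Fintype G] (N : Subgroup G) [hN : N.Normal] [Fintype N]

/-- **Knörr's theorem**, with the defect group inside the stabilizer of `b`. -/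
theorem knorr_stab [Fact p.Prime] (hM : IsPModular p M) {b : Set (IrrCharacter N)}
    (hb : IsPBlock M b) {B : Set (IrrCharacter G)} (hB : IsPBlock M B) (hcov : Covers N B b)
    {Q : Subgroup G} (hQN : Q ≤ N) (hQ : IsDefectGroup p M b (Q.subgroupOf N)) :
    ∃ P : Subgroup G, IsDefectGroup p M B P ∧ P ⊓ N = Q ∧ P ≤ blockStab N b := by
  classical
  haveI := IsPModular.isPrime hM
  set T := blockStab N b with hT_def
  haveI : Fintype T := Fintype.ofFinite _
  haveI : Fintype (N.subgroupOf T) := Fintype.ofFinite _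
  have hT := mem_blockStab_iff N hb
  have hNT : N ≤ T := le_blockStab N b
  obtain ⟨χ, hχ, hov⟩ := hcov
  obtain ⟨η, hη, hc⟩ := fr_exists N T hNT hT hov
  have he := (fr_core N T hNT hb hT hη hc).1
  have hB' : IsPBlock M (blockOf M (η : T → ℂ)) := ⟨η, rfl⟩
  have hcov' : ∃ ψ ∈ blockOf M (η : T → ℂ), Over N T hNT b (ψ : T → ℂ) :=
    ⟨η, self_mem_blockOf η, hη⟩
  obtain ⟨hall, B₁, hind, -, hmem⟩ := fr_block N T hNT hb hT hB' hcov'
  have h1 : χ ∈ B₁ := (hmem χ).2 ⟨η, self_mem_blockOf η, he⟩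
  have e : B = B₁ := by rw [isPBlock_eq_blockOf hB hχ, isPBlock_eq_blockOf hind.2.1 h1]
  subst e
  have hinv : ∀ (θ : IrrCharacter (N.subgroupOf T)) (x : T),
      conjIrr (N.subgroupOf T) θ x ∈ towerBlock hNT b ↔ θ ∈ towerBlock hNT b := by
    intro θ x
    obtain ⟨θ0, rfl⟩ : ∃ θ0, θ = towerIrr hNT θ0 := ⟨_, (irrComap_irrComap_symm _ θ).symm⟩
    rw [conjIrr_tower, irrComap_mem_blockComap, irrComap_mem_blockComap]
    exact stab_iff N T hT x.2 θ0
  have hQ' : IsDefectGroup p M (towerBlock hNT b)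
      ((Q.subgroupOf T).subgroupOf (N.subgroupOf T)) := by
    have := isDefectGroup_blockComap (M := M) (p := p) (Subgroup.subgroupOfEquivOfLe hNT) hQ
    convert this using 1
    ext x
    rfl
  obtain ⟨P', hP', hPN⟩ := knorr_invariant (N.subgroupOf T) hM (isPBlock_blockComap _ hb) hinv hB'
    ((covers_tower_iff hNT b _).2 hcov') (Q := Q.subgroupOf T)
    (fun y hy => hQN hy) hQ'
  refine ⟨P'.map T.subtype, defectGroup_indFun T hM hind hmem
    (fun ψ hψ => fr_irr N T hNT hb hT (hall ψ hψ)) hP', ?_, Subgroup.map_subtype_le _⟩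
  ext y
  constructor
  · rintro ⟨⟨t, ht, rfl⟩, hyN⟩
    have : t ∈ P' ⊓ N.subgroupOf T := ⟨ht, hyN⟩
    rw [hPN] at this
    exact this
  · intro hy
    have hyT : y ∈ T := hNT (hQN hy)
    have : (⟨y, hyT⟩ : T) ∈ P' ⊓ N.subgroupOf T := by rw [hPN]; exact hy
    exact ⟨⟨_, this.1, rfl⟩, hQN hy⟩

/-- the conjugate block `{θ^t}` -/
def conjBlock (b : Set (IrrCharacter N)) (t : G) : Set (IrrCharacter N) :=
  {θ | conjIrr N θ t⁻¹ ∈ b}

theorem conjIrr_mem_conjBlock (b : Set (IrrCharacter N)) (t : G) (θ : IrrCharacter N) :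
    conjIrr N θ t ∈ conjBlock N b t ↔ θ ∈ b := by
  unfold conjBlock
  rw [Set.mem_ofPred_eq, conjIrr_cancel_inv]

theorem conjBlock_eq_blockComap (b : Set (IrrCharacter N)) (t : G) :
    conjBlock N b t = blockComap (MulAut.conjNormal t : N ≃* N) b := by
  ext θ
  rw [mem_blockComap]
  unfold conjBlock
  rw [Set.mem_ofPred_eq]
  have : conjIrr N θ t⁻¹ = irrComap (MulAut.conjNormal t : N ≃* N).symm θ := by
    apply Subtype.ext
    funext n
    rw [conjIrr_apply, irrComap_apply]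
    congr 1
  rw [this]

theorem isPBlock_conjBlock {b : Set (IrrCharacter N)} (hb : IsPBlock M b) (t : G) :
    IsPBlock M (conjBlock N b t) := by
  rw [conjBlock_eq_blockComap]
  exact isPBlock_blockComap _ hb

theorem covers_conjBlock {B : Set (IrrCharacter G)} {b : Set (IrrCharacter N)}
    (h : Covers N B b) (t : G) : Covers N B (conjBlock N b t) := by
  obtain ⟨χ, hχ, θ, hθ, hc⟩ := h
  exact ⟨χ, hχ, conjIrr N θ t, (conjIrr_mem_conjBlock N b t θ).2 hθ,
    by rw [classInner_conjIrr]; exact hc⟩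

theorem isDefectGroup_conjBlock [Fact p.Prime] {b : Set (IrrCharacter N)} {Q : Subgroup G}
    (hQ : IsDefectGroup p M b (Q.subgroupOf N)) (t : G) :
    IsDefectGroup p M (conjBlock N b t)
      ((Q.map (MulAut.conj t⁻¹).toMonoidHom).subgroupOf N) := by
  rw [conjBlock_eq_blockComap]
  have := isDefectGroup_blockComap (M := M) (p := p) (MulAut.conjNormal t : N ≃* N) hQ
  convert this using 1
  ext x
  rw [Subgroup.mem_subgroupOf, Subgroup.mem_comap, Subgroup.mem_subgroupOf, Subgroup.mem_map]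
  constructor
  · rintro ⟨q, hq, hqx⟩
    have : ((MulAut.conjNormal t : N ≃* N) x : G) = q := by
      rw [MulAut.conjNormal_apply, ← hqx]
      simp [mul_assoc]
    exact (show (((MulAut.conjNormal t : N ≃* N) x : N) : G) ∈ Q by rw [this]; exact hq)
  · intro h
    refine ⟨_, h, ?_⟩
    have : ((MulAut.conjNormal t : N ≃* N) x : G) = t * x * t⁻¹ := MulAut.conjNormal_apply _ _
    change (MulAut.conj t⁻¹) (((MulAut.conjNormal t : N ≃* N) x : N) : G) = x
    rw [this]
    simp [mul_assoc]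

theorem isConjCharOf_iff (x : G) (χ χ' : IrrCharacter N) :
    IsConjCharOf N x (χ : N → ℂ) (χ' : N → ℂ) ↔ χ' = conjIrr N χ x⁻¹ := by
  constructor
  · intro h
    apply Subtype.ext
    funext k'
    rw [conjIrr_apply]
    exact h ⟨x⁻¹ * k' * x⁻¹⁻¹, hN.conj_mem k' k'.2 x⁻¹⟩ k' (by simp [mul_assoc])
  · rintro rfl k k' hk
    rw [conjIrr_apply]
    have : (⟨x⁻¹ * k' * x⁻¹⁻¹, hN.conj_mem k' k'.2 x⁻¹⟩ : N) = k := by
      apply Subtype.ext
      simp [hk, mul_assoc]
    rw [this]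

theorem stabilizesBlock_iff [M.IsPrime] {c : Set (IrrCharacter N)} (hc : IsPBlock M c) (x : G) :
    StabilizesBlock N c x ↔ x ∈ blockStab N c := by
  rw [← inv_mem_iff, mem_blockStab_iff N hc]
  constructor
  · rintro ⟨-, h⟩ χ hχ
    obtain ⟨χ', hχ', h2⟩ := h χ hχ
    rw [← (isConjCharOf_iff N x χ χ').1 h2]
    exact hχ'
  · intro h
    refine ⟨by rw [Subgroup.normalizer_eq_top]; trivial, fun χ hχ => ?_⟩
    exact ⟨_, h χ hχ, (isConjCharOf_iff N x χ _).2 rfl⟩

theorem blockStab_conjBlock (b : Set (IrrCharacter N)) (t y : G) (hy : y ∈ blockStab N b) :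
    t⁻¹ * y * t ∈ blockStab N (conjBlock N b t) := by
  intro θ
  unfold conjBlock
  rw [Set.mem_ofPred_eq, Set.mem_ofPred_eq, conjIrr_conjIrr]
  have : t⁻¹ * y * t * t⁻¹ = t⁻¹ * y := by group
  rw [this, ← conjIrr_conjIrr]
  exact hy _

/-- `S4671` -/
theorem exists_stable_block_inf [Fact p.Prime] (hM : IsPModular p M) {B : Set (IrrCharacter G)}
    (hB : IsPBlock M B) {P : Subgroup G} (hP : IsDefectGroup p M B P) :
    ∃ c : Set (IrrCharacter N), IsPBlock M c ∧ P ≤ blockStab N c ∧ Covers N B c ∧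
      IsDefectGroup p M c ((P ⊓ N).subgroupOf N) := by
  classical
  haveI := IsPModular.isPrime hM
  obtain ⟨χ, hχ⟩ := isPBlock_nonempty hB
  obtain ⟨θ0, hθ0⟩ := exists_constituent_res N χ
  have hb : IsPBlock M (blockOf M (θ0 : N → ℂ)) := ⟨θ0, rfl⟩
  have hcov : Covers N B (blockOf M (θ0 : N → ℂ)) := ⟨χ, hχ, θ0, self_mem_blockOf θ0, hθ0⟩
  obtain ⟨Q0, hQ0⟩ := exists_defectGroup hM hb
  have hQ0' : (Q0.map N.subtype).subgroupOf N = Q0 :=
    Subgroup.comap_map_eq_self_of_injective (Subgroup.subtype_injective _) _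
  obtain ⟨P', hP', hPN, hPT⟩ := knorr_stab N hM hb hB hcov (Q := Q0.map N.subtype)
    (Subgroup.map_subtype_le _) (by rw [hQ0']; exact hQ0)
  obtain ⟨t, ht⟩ := defectGroup_le_conj hM hB hP' hP
  have hPeq : P = P'.map (MulAut.conj t).toMonoidHom := by
    apply Subgroup.eq_of_le_of_card_ge ht
    rw [Subgroup.card_map_of_injective (MulAut.conj t).injective, card_defectGroup hM hB hP',
      card_defectGroup hM hB hP]
  refine ⟨conjBlock N (blockOf M (θ0 : N → ℂ)) t⁻¹, isPBlock_conjBlock N hb _, ?_,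
    covers_conjBlock N hcov _, ?_⟩
  · intro x hx
    rw [hPeq] at hx
    obtain ⟨y, hy, rfl⟩ := hx
    have := blockStab_conjBlock N _ t⁻¹ y (hPT hy)
    rw [inv_inv] at this
    exact this
  · have h1 := isDefectGroup_conjBlock (M := M) (p := p) N (Q := Q0.map N.subtype)
      (by rw [hQ0']; exact hQ0) t⁻¹
    rw [inv_inv] at h1
    convert h1 using 2
    rw [← hPN, hPeq]
    ext z
    constructor
    · rintro ⟨⟨y, hy, rfl⟩, hz⟩
      refine ⟨y, ⟨hy, ?_⟩, rfl⟩
      have := hN.conj_mem _ hz t⁻¹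
      simpa [mul_assoc] using this
    · rintro ⟨y, ⟨hy, hyN⟩, rfl⟩
      exact ⟨⟨y, hy, rfl⟩, hN.conj_mem _ hyN t⟩

end general

end Cfsg.Agent.Lib.Helper7
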