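import Cfsg.Agent.Lib.Helper7.BlockFongGen
import Cfsg.Agent.Lib.Helper7.BlockKnorr
import Cfsg.Agent.Lib.Helper25.ItoMichler

set_option autoImplicit false
set_option linter.style.haveILetI false
set_option linter.unusedSectionVars false
open Cfsg
open scoped ComplexConjugate

namespace Cfsg.Agent.Lib.Helper7

universe u
variable {G : Type u} [Group G] {M : Ideal AlgInt} {p : ℕ}

theorem relIndex_mul_card_h7 {H K : Subgroup G} (h : H ≤ K) :
    H.relIndex K * Nat.card H = Nat.card K := by
  have := Subgroup.relIndex_mul_relIndex ⊥ H K bot_le h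
  rw [Subgroup.relIndex_bot_left, Subgroup.relIndex_bot_left] at this
  rw [mul_comm]
  exact this

theorem exists_max_cover [Fintype G] (N : Subgroup G) [hN : N.Normal] [Fintype N] [M.IsPrime]
    (p : ℕ) {b : Set (IrrCharacter N)} (hb : IsPBlock M b) :
    ∃ B : Set (IrrCharacter G), IsPBlock M B ∧ Covers N B b ∧
      ∀ B' : Set (IrrCharacter G), IsPBlock M B' → Covers N B' b →
        blockDefect p B' ≤ blockDefect p B := by
  set S : Set ℕ := {d | ∃ B : Set (IrrCharacter G), IsPBlock M B ∧ Covers N B b ∧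
    blockDefect p B = d} with hS
  have hne : S.Nonempty := by
    obtain ⟨θ, hθ⟩ := isPBlock_nonempty hb
    obtain ⟨χ, hχ⟩ := exists_over N θ
    exact ⟨_, blockOf M (χ : G → ℂ), ⟨χ, rfl⟩, ⟨χ, self_mem_blockOf χ, θ, hθ, hχ⟩, rfl⟩
  have hbdd : BddAbove S := by
    refine ⟨(Nat.card G).factorization p, ?_⟩
    rintro d ⟨B, -, -, rfl⟩
    exact Nat.sub_le _ _
  obtain ⟨B, hB, hcov, hd⟩ := Nat.sSup_mem hne hbdd
  refine ⟨B, hB, hcov, fun B' hB' hcov' => ?_⟩
  rw [hd]
  exact le_csSup hbdd ⟨B', hB', hcov', rfl⟩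

/-- A block of a normal subgroup contains a height zero character whose inertia group has index
prime to `p` in the stabilizer of the block. -/
theorem exists_height_zero_inertia [Fintype G] (N : Subgroup G) [hN : N.Normal] [Fintype N]
    [Fact p.Prime] (hM : IsPModular p M) {b : Set (IrrCharacter N)} (hb : IsPBlock M b) :
    ∃ θ ∈ b, blockHeight p b (θ : N → ℂ) = 0 ∧
      Cfsg.Agent.Lib.Helper25.inertia N (θ : N → ℂ) ≤ blockStab N b ∧
      ¬ p ∣ (Cfsg.Agent.Lib.Helper25.inertia N (θ : N → ℂ)).relIndex (blockStab N b) := by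
  classical
  haveI := IsPModular.isPrime hM
  have hp : p.Prime := hM.1
  set T := blockStab N b with hT_def
  haveI : Fintype T := Fintype.ofFinite _
  have hT := mem_blockStab_iff N hb
  have hNT : N ≤ T := le_blockStab N b
  obtain ⟨B, hB, hcov, hmax⟩ := exists_max_cover N p hb
  have hfong := fong_general N T hM hNT hb hT hB hcov hmax
  obtain ⟨χ, hχ, hχ0⟩ := exists_height_zero hB p
  obtain ⟨θ, hθ, hc⟩ := over_of_covers N hb hB hcov hχ
  set I := Cfsg.Agent.Lib.Helper25.inertia N (θ : N → ℂ) with hI_def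
  have hIT : I ≤ T := by
    intro g hg
    apply mem_stab_of_conj_mem N T hb hT hθ (y := g)
    have : conjIrr N θ g = θ := by
      apply Subtype.ext
      funext n
      rw [conjIrr_apply]
      exact (Cfsg.Agent.Lib.Helper25.mem_inertia N _ g).1 hg n
    rw [this]
    exact hθ
  have hdvd := Cfsg.Agent.Lib.Helper25.clifford_degree_nat N χ.2 θ.2 hc
    (charDegree_cast (isCharacter_of_irr χ.2)).symm (charDegree_cast (isCharacter_of_irr θ.2)).symm
  have hIi : I.index ≠ 0 := Subgroup.index_ne_zero_of_finite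
  have hθ0 : charDegree (θ : N → ℂ) ≠ 0 := (charDegree_pos θ).ne'
  have hχ1 : charDegree (χ : G → ℂ) ≠ 0 := (charDegree_pos χ).ne'
  have h1 := (Nat.factorization_le_iff_dvd (mul_ne_zero hIi hθ0) hχ1).2 hdvd p
  rw [Nat.factorization_mul hIi hθ0, Finsupp.add_apply] at h1
  have h2 := sInf_le_of_mem p hθ
  have h3 := sInf_le_factorization_card hb p
  have h4 := sInf_le_factorization_card hB p
  have e1 := congrArg (fun n => n.factorization p) (Subgroup.card_mul_index I)
  have e2 := congrArg (fun n => n.factorization p) (relIndex_mul_card_h7 hNT)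
  have e3 := congrArg (fun n => n.factorization p) (relIndex_mul_card_h7 hIT)
  have hI0 : Nat.card I ≠ 0 := Nat.card_pos.ne'
  have hN0 : Nat.card N ≠ 0 := Nat.card_pos.ne'
  have hr1 : N.relIndex T ≠ 0 := by
    intro h
    have := relIndex_mul_card_h7 hNT
    rw [h, zero_mul] at this
    exact (Nat.card_pos (α := T)).ne' this.symm
  have hr2 : I.relIndex T ≠ 0 := by
    intro h
    have := relIndex_mul_card_h7 hIT
    rw [h, zero_mul] at this
    exact (Nat.card_pos (α := T)).ne' this.symm
  simp only [Nat.factorization_mul hI0 hIi, Nat.factorization_mul hr1 hN0,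
    Nat.factorization_mul hr2 hI0, Finsupp.add_apply] at e1 e2 e3
  unfold blockDefect at hfong
  refine ⟨θ, hθ, ?_, hIT, ?_⟩
  · apply height_zero_of_eq
    omega
  · have h5 : (I.relIndex T).factorization p = 0 := by omega
    rcases (Nat.factorization_eq_zero_iff _ _).1 h5 with h | h | h
    · exact absurd hp h
    · exact h
    · exact absurd h hr2

end Cfsg.Agent.Lib.Helper7
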