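import Cfsg.Agent.Lib.Helper7.BlockKnorr2

set_option autoImplicit false
set_option linter.style.haveILetI false
set_option linter.unusedSectionVars false
open Cfsg
open scoped ComplexConjugate

namespace Cfsg.Agent.Lib.Helper7

universe u
variable {G : Type u} [Group G] {M : Ideal AlgInt} {p : ℕ}

theorem defectGroup_le_normal [Finite G] (hM : IsPModular p M) {B : Set (IrrCharacter G)}
    (hB : IsPBlock M B) {D D' : Subgroup G} (hD : IsDefectGroup p M B D)
    (hD' : IsDefectGroup p M B D') {N : Subgroup G} [hN : N.Normal] (h : D ≤ N) : D' ≤ N := by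
  obtain ⟨t, ht⟩ := defectGroup_le_conj hM hB hD hD'
  intro x hx
  obtain ⟨y, hy, rfl⟩ := ht hx
  exact hN.conj_mem _ (h hy) t

section general
variable [Fintype G] (N L : Subgroup G) [hN : N.Normal] [hL : L.Normal] [Fintype N]

/-- `S4673` -/
theorem blockStab_inf_eq [Fact p.Prime] (hM : IsPModular p M) (hNL : N ≤ L)
    (hLN : ∃ k : ℕ, (N.subgroupOf L).index = p ^ k) {B : Set (IrrCharacter G)}
    (hB : IsPBlock M B) {c : Set (IrrCharacter N)} (hc : IsPBlock M c) (hcov : Covers N B c)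
    (hD : ∃ D : Subgroup G, IsDefectGroup p M B D ∧ D ≤ N) : blockStab N c ⊓ L = N := by
  classical
  haveI := IsPModular.isPrime hM
  haveI : Fintype L := Fintype.ofFinite _
  haveI : Fintype (N.subgroupOf L) := Fintype.ofFinite _
  obtain ⟨D, hD, hDN⟩ := hD
  obtain ⟨χ, hχ, θ, hθ, hcon⟩ := hcov
  obtain ⟨ψ, hψ1, hψ2⟩ := (constituent_tower hNL χ θ).1 hcon
  set b' := blockOf M (ψ : L → ℂ) with hb'_def
  have hb' : IsPBlock M b' := ⟨ψ, rfl⟩
  have hcov1 : Covers L B b' := ⟨χ, hχ, ψ, self_mem_blockOf ψ, hψ1⟩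
  have hc' : IsPBlock M (towerBlock hNL c) := isPBlock_blockComap _ hc
  have hcov2 : Covers (N.subgroupOf L) b' (towerBlock hNL c) :=
    ⟨ψ, self_mem_blockOf ψ, towerIrr hNL θ, (irrComap_mem_blockComap _).2 hθ,
      by rw [classInner_tower hNL (ψ : L → ℂ) θ]; exact hψ2⟩
  -- a defect group of `b'` inside `N`
  obtain ⟨Q0, hQ0⟩ := exists_defectGroup hM hb'
  have hQ0' : (Q0.map L.subtype).subgroupOf L = Q0 :=
    Subgroup.comap_map_eq_self_of_injective (Subgroup.subtype_injective _) _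
  obtain ⟨P, hP, hPL⟩ := knorr L hM hb' hB hcov1 (Q := Q0.map L.subtype)
    (Subgroup.map_subtype_le _) (by rw [hQ0']; exact hQ0)
  have hPN : P ≤ N := defectGroup_le_normal hM hB hD hP hDN
  have hQ0N : Q0 ≤ N.subgroupOf L := by
    intro x hx
    have : (x : G) ∈ Q0.map L.subtype := ⟨x, hx, rfl⟩
    rw [← hPL] at this
    exact hPN this.1
  -- a defect group of `c`
  obtain ⟨Q1, hQ1⟩ := exists_defectGroup hM hc'
  have hQ1' : (Q1.map (N.subgroupOf L).subtype).subgroupOf (N.subgroupOf L) = Q1 :=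
    Subgroup.comap_map_eq_self_of_injective (Subgroup.subtype_injective _) _
  obtain ⟨P1, hP1, hP1N⟩ := knorr (N.subgroupOf L) hM hc' hb' hcov2
    (Q := Q1.map (N.subgroupOf L).subtype) (Subgroup.map_subtype_le _) (by rw [hQ1']; exact hQ1)
  have hP1le : P1 ≤ N.subgroupOf L := defectGroup_le_normal hM hb' hQ0 hP1 hQ0N
  have hP1eq : P1 = Q1.map (N.subgroupOf L).subtype := by
    rw [← hP1N]; exact (inf_eq_left.2 hP1le).symm
  have hdeq : blockDefect p b' = blockDefect p (towerBlock hNL c) := by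
    have h1 := card_defectGroup hM hb' hP1
    have h2 := card_defectGroup hM hc' hQ1
    rw [hP1eq, Subgroup.card_map_of_injective (Subgroup.subtype_injective _), h2] at h1
    exact (Nat.pow_right_injective hM.1.two_le h1).symm
  -- Fong
  set T' := blockStab (N.subgroupOf L) (towerBlock hNL c) with hT'_def
  haveI : Fintype T' := Fintype.ofFinite _
  have h3 := fong_general (N.subgroupOf L) T' hM (le_blockStab _ _) hc'
    (mem_blockStab_iff (N.subgroupOf L) hc') hb' hcov2
    (fun b'' hb'' hc'' => by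
      rw [eq_of_covers_of_index (N.subgroupOf L) hM hLN hc' hb'' hb' hc'' hcov2])
  rw [hdeq] at h3
  have h4 : ((N.subgroupOf L).relIndex T').factorization p = 0 := by omega
  have h5 : (N.subgroupOf L).relIndex T' = 1 := by
    obtain ⟨k, hk⟩ := hLN
    have h6 : (N.subgroupOf L).relIndex T' ∣ p ^ k := hk ▸ Subgroup.relIndex_dvd_index_of_normal _ _
    obtain ⟨j, -, hj⟩ := (Nat.dvd_prime_pow hM.1).1 h6
    rw [hj, hM.1.factorization_pow, Finsupp.single_eq_same] at h4
    rw [hj, h4, pow_zero]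
  have h7 : T' ≤ N.subgroupOf L := Subgroup.relIndex_eq_one.1 h5
  apply le_antisymm
  · rintro x ⟨hxT, hxL⟩
    have : (⟨x, hxL⟩ : L) ∈ T' := by
      intro θ'
      obtain ⟨θ0, rfl⟩ : ∃ θ0, θ' = towerIrr hNL θ0 := ⟨_, (irrComap_irrComap_symm _ θ').symm⟩
      rw [conjIrr_tower, irrComap_mem_blockComap, irrComap_mem_blockComap]
      exact hxT θ0
    exact h7 this
  · exact le_inf (le_blockStab N c) hNL

end general

end Cfsg.Agent.Lib.Helper7
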