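import Cfsg.Agent.Lib.Helper7.BlockTuple
import Cfsg.Agent.Lib.Helper24.BlockThird

set_option autoImplicit false
set_option linter.style.haveILetI false
open Cfsg
open scoped ComplexConjugate

namespace Cfsg.Agent.Lib.Helper7

universe u
variable {G : Type u} [Group G] {M : Ideal AlgInt} {p : ℕ}

section fin
variable [Fintype G] [DecidableEq G]

theorem cpow_shift {c : G → ℂ} (hc : IsClassFunction G c) (g : G) (n : ℕ) (w : G) :
    cpow (fun h => c (h * g)) n w = cpow c n (w * g ^ n) := by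
  induction n generalizing w with
  | zero => simp [cpow]
  | succ n ih =>
    show conv (fun h => c (h * g)) (cpow (fun h => c (h * g)) n) w = conv c (cpow c n) _
    rw [conv, conv]
    apply Fintype.sum_equiv (Equiv.mulRight g)
    intro h
    simp only [Equiv.coe_mulRight]
    rw [ih]
    congr 1
    have := isClassFunction_cpow hc n ((h * g)⁻¹ * (w * g ^ (n + 1))) g
    rw [← this]
    congr 1
    rw [pow_succ]; group

theorem cpow_congr_idem (hM : IsPModular p M) {c e : G → ℂ}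
    (hc : IsClassFunction G c) (hcS : ∀ g, MemLocalRing M (c g))
    (he : IsClassFunction G e) (heS : ∀ g, MemLocalRing M (e g)) (hee : Om e * Om e = Om e)
    {r : ℂ} (hr : MemLocalRing M r) (hcong : ∀ χ, MemLocalIdeal M (Om c χ - r * Om e χ)) :
    ∃ m : ℕ, ∀ n, m ≤ p ^ n → ∀ g, MemLocalIdeal M (cpow c (p ^ n) g - r ^ (p ^ n) * e g) := by
  haveI := hM.2.1.isPrime
  let v : centralSubring (G := G) (localRing M) := ⟨Om c, c, hc, hcS, rfl⟩
  let ε : centralSubring (G := G) (localRing M) := ⟨Om e, e, he, heS, rfl⟩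
  let rr : centralSubring (G := G) (localRing M) := ⟨fun _ => r, const_mem_centralSubring hr⟩
  let d : G → ℂ := c + -(r • e)
  have hd : IsClassFunction G d := by
    intro g x
    simp only [d, Pi.add_apply, Pi.neg_apply, Pi.smul_apply, hc g x, he g x]
  have hdS : ∀ g, MemLocalRing M (d g) := by
    intro g
    simp only [d, Pi.add_apply, Pi.neg_apply, Pi.smul_apply, smul_eq_mul, ← sub_eq_add_neg]
    exact memLocalRing_sub (hcS g) (memLocalRing_mul hr (heS g))
  have hOmd : Om d = Om c + -(r • Om e) := by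
    simp only [d]
    rw [Om_add, Om_neg, Om_smul]
  obtain ⟨m, hm1, hm⟩ := exists_cpow_memLocalIdeal hd hdS (by
    intro χ
    rw [hOmd]
    simp only [Pi.add_apply, Pi.neg_apply, Pi.smul_apply, smul_eq_mul, ← sub_eq_add_neg]
    exact hcong χ)
  refine ⟨m, fun n hn g => ?_⟩
  let ν : centralSubring (G := G) (localRing M) := v - rr * ε
  have hν : ν.1 = Om d := by
    rw [hOmd]
    ext χ
    simp [ν, v, rr, ε, sub_eq_add_neg]
  have hνm : ν ^ m ∈ centralIdeal G M :=
    ⟨cpow d m, isClassFunction_cpow hd m, hm, by rw [Om_cpow hd, ← hν]; rfl⟩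
  have hνq : ν ^ (p ^ n) ∈ centralIdeal G M := by
    rw [← Nat.sub_add_cancel hn, pow_add]; exact Ideal.mul_mem_left _ _ hνm
  have hpI : (p : centralSubring (G := G) (localRing M)) ∈ centralIdeal G M := by
    refine ⟨fun g => if g = 1 then (p : ℂ) else 0, ?_, ?_, ?_⟩
    · intro g x
      have : x * g * x⁻¹ = 1 ↔ g = 1 := by
        constructor
        · intro h
          have : g = x⁻¹ * (x * g * x⁻¹) * x := by group
          rw [this, h]; group
        · rintro rfl; group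
      simp only [this]
    · intro g; simp only; split_ifs
      exacts [(memLocalIdeal_natCast_iff hM p).2 (dvd_refl p), memLocalIdeal_zero]
    · have : (fun g : G => if g = 1 then (p : ℂ) else 0)
          = (p : ℂ) • (fun g : G => if g = 1 then (1 : ℂ) else 0) := by
        ext g; by_cases hg : g = 1 <;> simp [hg]
      rw [this, Om_smul, Om_delta]
      ext χ; simp
  obtain ⟨t, ht⟩ := exists_add_pow_prime_pow_eq hM.1 (rr * ε) ν n
  have hv : rr * ε + ν = v := by simp [ν]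
  rw [hv] at ht
  have hεε : ε * ε = ε := Subtype.ext hee
  have hq1 : 1 ≤ p ^ n := Nat.one_le_pow _ _ hM.1.pos
  have hεq : ε ^ (p ^ n) = ε := by
    have : ∀ k : ℕ, ε ^ (k + 1) = ε := by
      intro k
      induction k with
      | zero => simp
      | succ k ih => rw [pow_succ, ih, hεε]
    rw [← Nat.sub_add_cancel hq1]
    exact this _
  have h1 : v ^ (p ^ n) - rr ^ (p ^ n) * ε ∈ centralIdeal G M := by
    rw [ht, mul_pow, hεq]
    have : rr ^ p ^ n * ε + ν ^ p ^ n + ↑p * (rr * ε) * ν * t - rr ^ p ^ n * ε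
        = ν ^ p ^ n + ↑p * ((rr * ε) * ν * t) := by ring
    rw [this]; exact Ideal.add_mem _ hνq (Ideal.mul_mem_right _ _ hpI)
  obtain ⟨d', hd', hd'I, hvd⟩ := h1
  have h2 : cpow c (p ^ n) + -(r ^ (p ^ n) • e) = d' := by
    apply Om_injective _ hd'
    · rw [Om_add, Om_neg, Om_smul, Om_cpow hc, ← hvd]
      ext χ
      simp [v, rr, ε, sub_eq_add_neg]
    · intro g x
      simp only [Pi.add_apply, Pi.neg_apply, Pi.smul_apply, isClassFunction_cpow hc _ g x, he g x]
  have h3 := congrFun h2 g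
  simp only [Pi.add_apply, Pi.neg_apply, Pi.smul_apply, smul_eq_mul, ← sub_eq_add_neg] at h3
  rw [h3]
  exact hd'I g

end fin

theorem memLocalIdeal_natCast_pow_sub (hM : IsPModular p M) (R n : ℕ) :
    MemLocalIdeal M ((R : ℂ) ^ (p ^ n) - R) := by
  haveI := hM.2.1.isPrime
  haveI : Fact p.Prime := ⟨hM.1⟩
  have h1 : ((R ^ (p ^ n) : ℕ) : ZMod p) = (R : ZMod p) := by
    push_cast
    exact ZMod.pow_card_pow (p := p) _
  have h2 : (p : ℤ) ∣ ((R ^ (p ^ n) : ℕ) : ℤ) - (R : ℤ) := by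
    have := (ZMod.natCast_eq_natCast_iff _ _ _).1 h1
    exact (Nat.modEq_iff_dvd.1 this.symm)
  obtain ⟨k, hk⟩ := h2
  have h3 : (R : ℂ) ^ (p ^ n) - R = (p : ℂ) * (k : ℂ) := by
    have := congrArg (Int.cast : ℤ → ℂ) hk
    push_cast at this
    exact this
  rw [h3]
  exact memLocalIdeal_mul_right ((memLocalIdeal_natCast_iff hM p).2 (dvd_refl p))
    (memLocalRing_intCast k)

/-- `S0940`: Külshammer's formula for the principal block idempotent. -/
theorem kulshammer [Finite G] (hM : IsPModular p M) {g : G} (hg : ¬ p ∣ orderOf g) :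
    MemLocalIdeal M (blockCoeff (principalBlock M G) g
      - (Nat.card {xy : G × G // (∃ k : ℕ, orderOf xy.1 = p ^ k) ∧ ¬ p ∣ orderOf xy.2 ∧
          xy.1 * xy.2 = g} : ℂ) / (Nat.card {y : G // ¬ p ∣ orderOf y} : ℂ)) := by
  classical
  haveI := hM.2.1.isPrime
  haveI : Fact p.Prime := ⟨hM.1⟩
  haveI := Fintype.ofFinite G
  have hp := hM.1
  obtain ⟨c, hcdef⟩ : ∃ c, c = Cfsg.Agent.Lib.Helper24.regInd p G := ⟨_, rfl⟩
  obtain ⟨e, hedef⟩ : ∃ e, e = blockCoeff (principalBlock M G) := ⟨_, rfl⟩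
  obtain ⟨R, hRdef⟩ : ∃ R, R = Nat.card {y : G // ¬ p ∣ orderOf y} := ⟨_, rfl⟩
  have hB : IsPBlock M (principalBlock M G) := Cfsg.Agent.Lib.Helper24.isPBlock_principalBlock
  have hc : IsClassFunction G c := hcdef ▸ Cfsg.Agent.Lib.Helper24.isClassFunction_regInd p
  have hcS : ∀ g, MemLocalRing M (c g) := hcdef ▸ Cfsg.Agent.Lib.Helper24.memLocalRing_regInd p
  have he : IsClassFunction G e := hedef ▸ isClassFunction_blockCoeff _
  have heS : ∀ g, MemLocalRing M (e g) := hedef ▸ osima hB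
  have hOme : Om e = (principalBlock M G).indicator (fun _ => (1 : ℂ)) := hedef ▸ Om_blockCoeff _
  have hee : Om e * Om e = Om e := by
    rw [hOme]
    ext χ
    by_cases hχ : χ ∈ principalBlock M G
    · simp [Set.indicator_of_mem hχ]
    · simp [Set.indicator_of_notMem hχ]
  have hRp : ¬ p ∣ R := hRdef ▸ Cfsg.Agent.Lib.Helper24.not_dvd_card_regular p G
  have hcong : ∀ χ, MemLocalIdeal M (Om c χ - (R : ℂ) * Om e χ) := by
    intro χ
    rw [hOme]
    by_cases hχ : χ ∈ principalBlock M G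
    · rw [Set.indicator_of_mem hχ, mul_one, hRdef, ← Cfsg.Agent.Lib.Helper24.Om_regInd_one, ← hcdef]
      exact centralSubring_congr (M := M) (v := Om c) ⟨c, hc, hcS, rfl⟩ (sameBlock_symm hχ)
    · rw [Set.indicator_of_notMem hχ, mul_zero, sub_zero, hcdef,
        Cfsg.Agent.Lib.Helper24.Om_regInd_eq_zero hM hχ]
      exact memLocalIdeal_zero
  obtain ⟨m, hm⟩ := cpow_congr_idem hM hc hcS he heS hee (memLocalRing_natCast R) hcong
  -- choice of the exponent
  obtain ⟨n, hndef⟩ : ∃ n, n = Nat.totient (orderOf g) * (m + Nat.card G) := ⟨_, rfl⟩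
  have hφ : 1 ≤ Nat.totient (orderOf g) := Nat.totient_pos.2 (orderOf_pos g)
  have hn1 : m + Nat.card G ≤ n := by
    rw [hndef]; exact Nat.le_mul_of_pos_left _ hφ
  have hnq : n < p ^ n := Nat.lt_pow_self hp.one_lt
  have hgq : g ^ (p ^ n) = g := by
    have h1 : p ^ n ≡ 1 [MOD orderOf g] := by
      rw [hndef, pow_mul]
      have := Nat.ModEq.pow_totient ((Nat.Prime.coprime_iff_not_dvd hp).2 hg)
      have h2 := this.pow (m + Nat.card G)
      rwa [one_pow] at h2
    have := pow_eq_pow_iff_modEq.2 h1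
    rwa [pow_one] at this
  have hpel : ∀ h : G, h ^ (p ^ n) = 1 ↔ ∃ k : ℕ, orderOf h = p ^ k := by
    intro h
    constructor
    · intro hh
      obtain ⟨k, _, hk⟩ := (Nat.dvd_prime_pow hp).1 (orderOf_dvd_of_pow_eq_one hh)
      exact ⟨k, hk⟩
    · rintro ⟨k, hk⟩
      apply orderOf_dvd_iff_pow_eq_one.1
      rw [hk]
      apply pow_dvd_pow
      have h1 : k < p ^ k := Nat.lt_pow_self hp.one_lt
      have h2 : p ^ k ≤ Nat.card G := by rw [← hk]; exact orderOf_le_card
      omega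
  obtain ⟨x, hxdef⟩ : ∃ x : G → ℂ, x = fun h => c (h * g) := ⟨_, rfl⟩
  have hxS : ∀ h, MemLocalRing M (x h) := by intro h; rw [hxdef]; exact hcS _
  have hA := tupleW_one_congr hM x hxS n
  rw [← cpow_eq_tupleW, hxdef, cpow_shift hc, one_mul, hgq] at hA
  have hq1 : 1 ≤ p ^ n := Nat.one_le_pow _ _ hp.pos
  have hN : (∑ a : G, if a ^ (p ^ n) = 1 then c (a * g) ^ (p ^ n) else 0)
      = (Nat.card {xy : G × G // (∃ k : ℕ, orderOf xy.1 = p ^ k) ∧ ¬ p ∣ orderOf xy.2 ∧
          xy.1 * xy.2 = g} : ℂ) := by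
    have e1 : Nat.card {xy : G × G // (∃ k : ℕ, orderOf xy.1 = p ^ k) ∧ ¬ p ∣ orderOf xy.2 ∧
          xy.1 * xy.2 = g} = Nat.card {a : G // a ^ (p ^ n) = 1 ∧ ¬ p ∣ orderOf (a * g)} := by
      apply Nat.card_congr
      refine ⟨fun xy => ⟨xy.1.1⁻¹, ?_, ?_⟩, fun a => ⟨(a.1⁻¹, a.1 * g), ?_, ?_, ?_⟩, ?_, ?_⟩
      · rw [hpel, orderOf_inv]; exact xy.2.1
      · have h1 : xy.1.1⁻¹ * g = xy.1.2 := inv_mul_eq_iff_eq_mul.2 xy.2.2.2.symm
        rw [h1]; exact xy.2.2.1
      · show ∃ k : ℕ, orderOf a.1⁻¹ = p ^ k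
        rw [orderOf_inv, ← hpel]; exact a.2.1
      · exact a.2.2
      · show a.1⁻¹ * (a.1 * g) = g
        group
      · rintro ⟨⟨u, y⟩, h1, h2, h3⟩
        apply Subtype.ext
        simp only [inv_inv, Prod.mk.injEq, true_and]
        rw [← h3]; group
      · rintro ⟨a, h1, h2⟩
        apply Subtype.ext
        simp
    rw [e1, Nat.card_eq_fintype_card, Fintype.card_subtype, ← Finset.sum_boole]
    apply Finset.sum_congr rfl
    intro a _
    by_cases h1 : a ^ (p ^ n) = 1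
    · by_cases h2 : p ∣ orderOf (a * g)
      · rw [if_pos h1, if_neg (fun h => h.2 h2), hcdef,
          Cfsg.Agent.Lib.Helper24.regInd_of_singular h2, zero_pow (by omega)]
      · rw [if_pos h1, if_pos ⟨h1, h2⟩, hcdef,
          Cfsg.Agent.Lib.Helper24.regInd_of_regular h2, one_pow]
    · rw [if_neg h1, if_neg (fun h => h1 h.1)]
  rw [hN] at hA
  have hC := hm n (by omega) g
  have hR := memLocalIdeal_natCast_pow_sub hM R n
  rw [← hedef, ← hRdef]
  obtain ⟨N, hNdef⟩ : ∃ N : ℂ, N = (Nat.card {xy : G × G // (∃ k : ℕ, orderOf xy.1 = p ^ k) ∧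
      ¬ p ∣ orderOf xy.2 ∧ xy.1 * xy.2 = g} : ℂ) := ⟨_, rfl⟩
  rw [← hNdef] at hA ⊢
  have hR0 : (R : ℂ) ≠ 0 := by
    intro h
    apply hRp
    have : R = 0 := by exact_mod_cast h
    rw [this]; exact dvd_zero p
  have hfin : e g - N / R = ((cpow c (p ^ n) g - N) - (cpow c (p ^ n) g - (R : ℂ) ^ (p ^ n) * e g)
      - ((R : ℂ) ^ (p ^ n) - R) * e g) * (R : ℂ)⁻¹ := by
    field_simp
    ring
  rw [hfin]
  apply memLocalIdeal_mul_right _ (memLocalRing_inv_natCast hM hRp)
  exact memLocalIdeal_sub (memLocalIdeal_sub hA hC) (memLocalIdeal_mul_right hR (heS g))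

end Cfsg.Agent.Lib.Helper7
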