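import Mathlib
import Cfsg.Agent.Lib.Helper7.BlockThird
import Cfsg.Agent.Lib.Helper24.BlockDim

/-! Blocks are the connected components of the linking relation, hence do not depend on the
choice of the maximal ideal over `p`. -/

set_option autoImplicit false
set_option linter.style.haveILetI false

namespace Cfsg.Agent.Lib.Helper7

open Cfsg Cfsg.Agent.Lib.Helper24
open scoped ComplexConjugate

universe u
variable {G : Type u} [Group G] {p : ℕ}

/-- closed under linking -/
def LinkClosed [Fintype G] (p : ℕ) (A : Set (IrrCharacter G)) : Prop :=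
  ∀ χ ∈ A, ∀ ψ ∉ A, classInner (regPart p (χ : G → ℂ)) (ψ : G → ℂ) = 0

theorem classInner_regPart_symm [Fintype G] (a b : G → ℂ) :
    classInner (regPart p a) b = conj (classInner (regPart p b) a) := by
  rw [classInner_conj_symm]
  simp only [classInner]
  congr 1
  apply Finset.sum_congr rfl
  intro g _
  simp only [regPart]
  split_ifs <;> simp

theorem regPart_sum_smul {ι : Type*} (s : Finset ι) (c : ι → ℂ) (f : ι → G → ℂ) :
    regPart p (∑ i ∈ s, c i • f i) = ∑ i ∈ s, c i • regPart p (f i) := by
  funext g
  simp only [regPart, Finset.sum_apply, Pi.smul_apply, smul_eq_mul]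
  split_ifs <;> simp

theorem isClassFunction_sum_smul {ι : Type*} (s : Finset ι) (c : ι → ℂ) (f : ι → G → ℂ)
    (hf : ∀ i, IsClassFunction G (f i)) : IsClassFunction G (∑ i ∈ s, c i • f i) := by
  intro g x
  simp only [Finset.sum_apply, Pi.smul_apply, smul_eq_mul]
  exact Finset.sum_congr rfl fun i _ => by rw [hf i g x]

theorem classInner_sum_smul_irr [Fintype G] [Fintype (IrrCharacter G)] (c : IrrCharacter G → ℂ)
    (ψ : IrrCharacter G) :
    classInner (∑ χ : IrrCharacter G, c χ • (χ : G → ℂ)) (ψ : G → ℂ) = c ψ := by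
  classical
  rw [classInner_sum_left, Finset.sum_eq_single ψ]
  · rw [classInner_smul_left, classInner_irr_self ψ.2, mul_one]
  · intro χ _ hχ
    rw [classInner_smul_left, classInner_irr_ne χ.2 ψ.2 (fun h => hχ (Subtype.ext h)), mul_zero]
  · intro h; exact absurd (Finset.mem_univ _) h

theorem link_orth [Fintype G] [Fintype (IrrCharacter G)] {A : Set (IrrCharacter G)}
    (hA : LinkClosed p A) {x y : G} (hx : ¬ p ∣ orderOf x) (hy : p ∣ orderOf y) :
    ∑ χ : IrrCharacter G, A.indicator (fun χ => conj ((χ : G → ℂ) x) * (χ : G → ℂ) y) χ = 0 := by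
  classical
  let c : IrrCharacter G → ℂ := A.indicator (fun χ => conj ((χ : G → ℂ) x))
  let f : G → ℂ := ∑ χ : IrrCharacter G, c χ • (χ : G → ℂ)
  let F : G → ℂ := ∑ χ : IrrCharacter G, conj ((χ : G → ℂ) x) • (χ : G → ℂ)
  have hfcl : IsClassFunction G f := isClassFunction_sum_smul _ _ _ (fun χ => isClassFunction_irr χ)
  have h1 : ∀ ψ : IrrCharacter G, classInner f (ψ : G → ℂ) = c ψ := classInner_sum_smul_irr c
  have hF : regPart p F = F := by
    funext g
    simp only [regPart]
    split_ifs with hg
    · have hne : ¬ IsConj g x := by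
        intro h
        obtain ⟨t, ht⟩ := isConj_iff.1 h
        rw [← ht, orderOf_conj'] at hx
        exact hx hg
      have := column_orthogonality_ne hne
      simp only [F, Finset.sum_apply, Pi.smul_apply, smul_eq_mul]
      rw [← this]
      exact Finset.sum_congr rfl fun χ _ => mul_comm _ _
    · rfl
  have h2 : ∀ ψ : IrrCharacter G, classInner (regPart p f) (ψ : G → ℂ) = c ψ := by
    intro ψ
    have e1 : classInner (regPart p f) (ψ : G → ℂ)
        = ∑ χ : IrrCharacter G, c χ * classInner (regPart p (χ : G → ℂ)) (ψ : G → ℂ) := by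
      rw [regPart_sum_smul, classInner_sum_left]
      exact Finset.sum_congr rfl fun χ _ => classInner_smul_left _ _ _
    by_cases hψ : ψ ∈ A
    · have e2 : classInner (regPart p F) (ψ : G → ℂ)
          = ∑ χ : IrrCharacter G, conj ((χ : G → ℂ) x)
            * classInner (regPart p (χ : G → ℂ)) (ψ : G → ℂ) := by
        rw [regPart_sum_smul, classInner_sum_left]
        exact Finset.sum_congr rfl fun χ _ => classInner_smul_left _ _ _
      have e3 : classInner (regPart p f) (ψ : G → ℂ) = classInner (regPart p F) (ψ : G → ℂ) := by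
        rw [e1, e2]
        apply Finset.sum_congr rfl
        intro χ _
        by_cases hχ : χ ∈ A
        · show A.indicator _ χ * _ = _
          rw [Set.indicator_of_mem hχ]
        · rw [classInner_regPart_symm, hA ψ hψ χ hχ]
          simp
      rw [e3, hF, classInner_sum_smul_irr]
      show _ = A.indicator _ ψ
      rw [Set.indicator_of_mem hψ]
    · rw [e1]
      have : c ψ = 0 := Set.indicator_of_notMem hψ _
      rw [this]
      apply Finset.sum_eq_zero
      intro χ _
      by_cases hχ : χ ∈ A
      · rw [hA χ hχ ψ hψ, mul_zero]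
      · have : c χ = 0 := Set.indicator_of_notMem hχ _
        rw [this, zero_mul]
  have h3 : f - regPart p f = 0 := by
    apply eq_zero_of_classInner_irr_eq_zero
    · intro g t
      simp only [Pi.sub_apply]
      rw [hfcl g t, isClassFunction_regPart hfcl g t]
    · intro χ hχ
      rw [classInner_sub_left, h1 ⟨χ, hχ⟩, h2 ⟨χ, hχ⟩, sub_self]
  have h4 := congrFun h3 y
  simp only [Pi.sub_apply, Pi.zero_apply, regPart, if_pos hy, sub_zero] at h4
  rw [← h4]
  simp only [f, Finset.sum_apply, Pi.smul_apply, smul_eq_mul]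
  apply Finset.sum_congr rfl
  intro χ _
  by_cases hχ : χ ∈ A
  · show _ = A.indicator _ χ * _
    rw [Set.indicator_of_mem hχ, Set.indicator_of_mem hχ]
  · show _ = A.indicator _ χ * _
    rw [Set.indicator_of_notMem hχ, Set.indicator_of_notMem hχ, zero_mul]

theorem memLocalRing_blockCoeff_of_linkClosed [Fintype G] [Fact p.Prime] {M : Ideal AlgInt}
    (hM : IsPModular p M) {A : Set (IrrCharacter G)} (hA : LinkClosed p A) (x : G) :
    MemLocalRing M (blockCoeff A x) := by
  classical
  haveI := hM.2.1.isPrime
  haveI : Finite (IrrCharacter G) := Cfsg.Agent.Lib.Helper2.finite_irrCharacter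
  haveI : Fintype (IrrCharacter G) := Fintype.ofFinite _
  have h1reg : ¬ p ∣ orderOf (1 : G) := by
    rw [orderOf_one]; exact hM.1.one_lt.ne' ∘ Nat.dvd_one.1
  rw [blockCoeff_eq_sum]
  by_cases hx : p ∣ orderOf x
  · have h := link_orth hA h1reg hx
    have h' : ∑ χ : IrrCharacter G,
        A.indicator (fun χ => (χ : G → ℂ) 1 * conj ((χ : G → ℂ) x)) χ = 0 := by
      have h2 := congrArg conj h
      rw [map_zero, map_sum] at h2
      rw [← h2]
      apply Finset.sum_congr rfl
      intro χ _
      by_cases hχ : χ ∈ A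
      · rw [Set.indicator_of_mem hχ, Set.indicator_of_mem hχ, map_mul, Complex.conj_conj]
      · rw [Set.indicator_of_notMem hχ, Set.indicator_of_notMem hχ, map_zero]
    rw [h', mul_zero]
    exact memLocalRing_zero
  · obtain ⟨P⟩ : Nonempty (Sylow p G) := inferInstance
    haveI : Fintype (P : Subgroup G) := Fintype.ofFinite _
    choose n hn using exists_trivial_mult (G := G) (P : Subgroup G)
    have h2 : ∑ u : (P : Subgroup G), ∑ χ : IrrCharacter G,
        A.indicator (fun χ => conj ((χ : G → ℂ) x) * (χ : G → ℂ) (u : G)) χ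
        = ∑ χ : IrrCharacter G, A.indicator (fun χ => conj ((χ : G → ℂ) x) * (χ : G → ℂ) 1) χ := by
      rw [Finset.sum_eq_single (1 : (P : Subgroup G))]
      · rfl
      · intro u _ hu
        exact link_orth hA hx (singular_of_mem_pGroup P.2 u.2
          (fun h => hu (Subtype.ext h)))
      · intro h; exact absurd (Finset.mem_univ _) h
    have h3 : ∑ u : (P : Subgroup G), ∑ χ : IrrCharacter G,
        A.indicator (fun χ => conj ((χ : G → ℂ) x) * (χ : G → ℂ) (u : G)) χ
        = (Nat.card (P : Subgroup G) : ℂ) * ∑ χ : IrrCharacter G,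
          A.indicator (fun χ => conj ((χ : G → ℂ) x) * (n χ : ℂ)) χ := by
      rw [Finset.sum_comm, Finset.mul_sum]
      apply Finset.sum_congr rfl
      intro χ _
      by_cases hχ : χ ∈ A
      · simp only [Set.indicator_of_mem hχ]
        rw [← Finset.mul_sum, hn χ]
        ring
      · simp only [Set.indicator_of_notMem hχ]
        simp
    have h4 : ∑ χ : IrrCharacter G,
        A.indicator (fun χ => (χ : G → ℂ) 1 * conj ((χ : G → ℂ) x)) χ
        = (Nat.card (P : Subgroup G) : ℂ) * ∑ χ : IrrCharacter G,
          A.indicator (fun χ => conj ((χ : G → ℂ) x) * (n χ : ℂ)) χ := by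
      rw [← h3, h2]
      apply Finset.sum_congr rfl
      intro χ _
      by_cases hχ : χ ∈ A
      · rw [Set.indicator_of_mem hχ, Set.indicator_of_mem hχ, mul_comm]
      · rw [Set.indicator_of_notMem hχ, Set.indicator_of_notMem hχ]
    rw [h4, ← mul_assoc]
    apply memLocalRing_mul
    · have h5 : (Nat.card G : ℂ)⁻¹ * (Nat.card (P : Subgroup G) : ℂ)
          = (((P : Subgroup G).index : ℕ) : ℂ)⁻¹ := by
        rw [← (P : Subgroup G).card_mul_index]
        have hP0 : (Nat.card (P : Subgroup G) : ℂ) ≠ 0 := by exact_mod_cast Nat.card_pos.ne'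
        have hi0 : (((P : Subgroup G).index : ℕ) : ℂ) ≠ 0 := by
          exact_mod_cast (P : Subgroup G).index_ne_zero_of_finite
        push_cast
        field_simp
      rw [h5]
      exact memLocalRing_inv_natCast hM P.not_dvd_index
    · apply memLocalRing_sum
      intro χ _
      by_cases hχ : χ ∈ A
      · rw [Set.indicator_of_mem hχ]
        apply memLocalRing_mul _ (memLocalRing_natCast _)
        apply memLocalRing_of_isIntegral
        have := char_isIntegral (isCharacter_of_irr χ.2) x
        exact this.map (starRingEnd ℂ).toIntAlgHom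
      · rw [Set.indicator_of_notMem hχ]
        exact memLocalRing_zero

/-- a link-closed set is a union of blocks -/
theorem mem_of_linkClosed_of_sameBlock [Fintype G] [Fact p.Prime] {M : Ideal AlgInt}
    (hM : IsPModular p M) {A : Set (IrrCharacter G)} (hA : LinkClosed p A)
    {χ ψ : IrrCharacter G} (hχ : χ ∈ A) (h : SameBlock M (χ : G → ℂ) (ψ : G → ℂ)) : ψ ∈ A := by
  haveI := hM.2.1.isPrime
  by_contra hψ
  have hv : Om (blockCoeff A) ∈ centralSubring (G := G) (localRing M) :=
    ⟨blockCoeff A, isClassFunction_blockCoeff A,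
      fun g => memLocalRing_blockCoeff_of_linkClosed hM hA g, rfl⟩
  have h1 := centralSubring_congr hv h
  rw [Om_blockCoeff, Set.indicator_of_mem hχ, Set.indicator_of_notMem hψ, sub_zero] at h1
  exact not_memLocalIdeal_one h1

/-- blocks do not depend on the maximal ideal -/
theorem sameBlock_indep [Finite G] [Fact p.Prime] {M M' : Ideal AlgInt}
    (hM : IsPModular p M) (hM' : IsPModular p M') {χ ψ : IrrCharacter G}
    (h : SameBlock M (χ : G → ℂ) (ψ : G → ℂ)) : SameBlock M' (χ : G → ℂ) (ψ : G → ℂ) := by
  classical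
  haveI := Fintype.ofFinite G
  haveI := hM'.2.1.isPrime
  let A : Set (IrrCharacter G) := {φ | SameBlock M' (χ : G → ℂ) (φ : G → ℂ)}
  have hA : LinkClosed p A := by
    intro α hα β hβ
    have hne : ¬ SameBlock M' (α : G → ℂ) (β : G → ℂ) := fun h' => hβ (sameBlock_trans hα h')
    have := sum_regular_eq_zero hM' α β hne
    rw [classInner, this, mul_zero]
  have hχ : χ ∈ A := fun g => by rw [sub_self]; exact memLocalIdeal_zero
  exact mem_of_linkClosed_of_sameBlock hM hA hχ h

end Cfsg.Agent.Lib.Helper7
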