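import Cfsg.Agent.Lib.Helper7.BlockPCons2
import Cfsg.Agent.Lib.Helper7.BlockFR2
import Cfsg.Agent.Lib.Helper25.AbQuot
import Cfsg.Agent.Lib.Helper25.Cop2
import Cfsg.Agent.S0867
import Cfsg.Agent.S0887

set_option autoImplicit false
set_option linter.style.haveILetI false
set_option linter.unusedSectionVars false
open Cfsg
open scoped ComplexConjugate

namespace Cfsg.Agent.Lib.Helper7

universe u
variable {G : Type u} [Group G] {M : Ideal AlgInt} {p : ℕ}

theorem relIndex_subgroupOf_dvd (H K T : Subgroup G) [H.Normal] :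
    (H.subgroupOf T).relIndex (K.subgroupOf T) ∣ H.relIndex K := by
  have h1 : (H.subgroupOf T).relIndex (K.subgroupOf T) = H.relIndex (K ⊓ T) := by
    unfold Subgroup.subgroupOf
    rw [Subgroup.relIndex_comap]
    congr 1
    exact Subgroup.subgroupOf_map_subtype K T
  rw [h1, ← Subgroup.relIndex_subgroupOf (inf_le_left : K ⊓ T ≤ K)]
  exact Subgroup.relIndex_dvd_index_of_normal _ _

theorem isPSolvable_subgroup_h7 (hp : p.Prime) (h : IsPSolvable p G) (T : Subgroup G) :
    IsPSolvable p T := by
  obtain ⟨n, H, h0, hn, hmono, hnorm, hstep⟩ := h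
  refine ⟨n, fun i => (H i).subgroupOf T, ?_, ?_, ?_, ?_, ?_⟩
  · simp [h0]
  · simp [hn]
  · intro i j hij
    exact Subgroup.comap_mono (hmono hij)
  · intro i
    haveI := hnorm i
    infer_instance
  · intro i
    haveI := hnorm i.castSucc
    have hdvd := relIndex_subgroupOf_dvd (H i.castSucc) (H i.succ) T
    rcases hstep i with ⟨m, hm⟩ | hc
    · left
      rw [hm] at hdvd
      obtain ⟨k, _, hk⟩ := (Nat.dvd_prime_pow hp).1 hdvd
      exact ⟨k, hk⟩
    · right
      exact Nat.Coprime.coprime_dvd_left hdvd hc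

/-- Over an invariant character of a normal subgroup with coprime index and abelian quotient, all
characters are extensions. -/
theorem degree_eq_of_coprime_abelian {X : Type u} [Group X] [Fintype X] (N : Subgroup X)
    [hN : N.Normal] [Fintype N] (hcop : (Nat.card N).Coprime N.index)
    (hab : ∀ x y : X, x * y * x⁻¹ * y⁻¹ ∈ N) {θ : N → ℂ} (hθ : IsIrrCharacter N θ)
    (hinv : ∀ (g : X) (n : N), θ ⟨g * n * g⁻¹, hN.conj_mem n n.2 g⟩ = θ n) {ψ : X → ℂ}
    (hψ : IsIrrCharacter X ψ) (h : classInner (fun n : N => ψ n) θ ≠ 0) : ψ 1 = θ 1 := by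
  obtain ⟨d, -, hd⟩ := irr_apply_one hθ
  have hθc := isCharacter_of_irr hθ
  have h1 : d ∣ Nat.card N := by
    have := charDegree_dvd_card ⟨θ, hθ⟩
    rwa [Cfsg.Agent.Lib.Helper25.charDegree_eq hd] at this
  have h2 := Cfsg.Agent.Lib.Helper25.detOrder_dvd_card hθc
  have h3 : Nat.Coprime N.index (detOrder θ * d) :=
    Nat.Coprime.mul_right (Nat.Coprime.coprime_dvd_right h2 hcop.symm)
      (Nat.Coprime.coprime_dvd_right h1 hcop.symm)
  obtain ⟨χ, ⟨hχ, hχK, -⟩, -⟩ := Cfsg.Agent.S0867.result N θ hθ hinv d hd h3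
  have h' : classInner (fun n : N => χ n) θ ≠ 0 := by
    have : (fun n : N => χ n) = θ := funext hχK
    rw [this, classInner_irr_self hθ]
    exact one_ne_zero
  obtain ⟨f, hf⟩ := Cfsg.Agent.Lib.Helper25.exists_linear_mul_of_abelian_quotient N hab hθ
    (fun g => funext fun n => hinv g n) hψ hχ h h'
  rw [hf]
  simp only [map_one, Units.val_one, one_mul]
  exact hχK 1

/-- The preimage of `C(O_p(G / O_{p'}(G)))`. -/
def zCore (p : ℕ) (G : Type u) [Group G] : Subgroup G :=
  (Subgroup.centralizer (pCore p (G ⧸ pPrimeCore p G) : Set (G ⧸ pPrimeCore p G))).comap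
    (QuotientGroup.mk' (pPrimeCore p G))

instance zCore_normal (p : ℕ) (G : Type u) [Group G] : (zCore p G).Normal := by
  unfold zCore
  infer_instance

theorem pPrimeCore_le_zCore : pPrimeCore p G ≤ zCore p G := by
  intro x hx
  unfold zCore
  rw [Subgroup.mem_comap]
  have : QuotientGroup.mk' (pPrimeCore p G) x = 1 := (QuotientGroup.eq_one_iff x).2 hx
  rw [this]
  exact one_mem _

theorem zCore_le [Finite G] [Fact p.Prime] (hcons : IsPConstrained p G) :
    zCore p G ≤ pPrimePCore p G :=
  Subgroup.comap_mono (Cfsg.Agent.Lib.Helper5.isPConstrained_iff.1 hcons)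

theorem zCore_comm [Finite G] [Fact p.Prime] (hcons : IsPConstrained p G) {x y : G}
    (hx : x ∈ zCore p G) (hy : y ∈ zCore p G) : x * y * x⁻¹ * y⁻¹ ∈ pPrimeCore p G := by
  have hy' := zCore_le hcons hy
  unfold zCore at hx
  unfold pPrimePCore at hy'
  rw [Subgroup.mem_comap] at hx hy'
  have := (Subgroup.mem_centralizer_iff.1 hx) _ hy'
  rw [← QuotientGroup.eq_one_iff]
  have e : ((x * y * x⁻¹ * y⁻¹ : G) : G ⧸ pPrimeCore p G)
      = QuotientGroup.mk' (pPrimeCore p G) x * QuotientGroup.mk' (pPrimeCore p G) y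
        * (QuotientGroup.mk' (pPrimeCore p G) x)⁻¹ * (QuotientGroup.mk' (pPrimeCore p G) y)⁻¹ := rfl
  rw [e, ← this]
  group

theorem center_sylow_le_zCore [Finite G] [Fact p.Prime] (P : Sylow p G) {z : G}
    (hz : z ∈ (P : Subgroup G)) (hc : ∀ x ∈ (P : Subgroup G), x * z = z * x) : z ∈ zCore p G := by
  unfold zCore
  rw [Subgroup.mem_comap, Subgroup.mem_centralizer_iff]
  intro u hu
  have h1 := Cfsg.Agent.Lib.Helper5.pCore_le_sylow
    (P.mapSurjective (QuotientGroup.mk'_surjective (pPrimeCore p G))) hu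
  rw [Sylow.coe_mapSurjective] at h1
  obtain ⟨x, hx, rfl⟩ := h1
  rw [← map_mul, ← map_mul, hc x hx]

theorem factorization_degree_le [Fintype G] [Fact p.Prime] (hcons : IsPConstrained p G)
    (K : Subgroup G) [hK : K.Normal] [Fintype K] (hKdef : K = pPrimeCore p G) (θ : IrrCharacter K)
    (hθ : ∀ g : G, conjIrr K θ g = θ) (χ : IrrCharacter G)
    (hχ : classInner (fun k : K => (χ : G → ℂ) k) (θ : K → ℂ) ≠ 0) (P : Sylow p G) :
    (charDegree (χ : G → ℂ)).factorization p
      ≤ ((Subgroup.center (P : Subgroup G)).index).factorization p := by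
  classical
  have hp : p.Prime := Fact.out
  set A := zCore p G with hA
  haveI : Fintype A := Fintype.ofFinite _
  haveI : Fintype (K.subgroupOf A) := Fintype.ofFinite _
  have hKA : K ≤ A := by rw [hKdef]; exact pPrimeCore_le_zCore
  obtain ⟨η, hη1, hη2⟩ := (constituent_tower hKA χ θ).1 hχ
  have h887 := Cfsg.Agent.S0887.result A (χ : G → ℂ) χ.2 (η : A → ℂ) η.2 hη1
    (charDegree (χ : G → ℂ)) (charDegree (η : A → ℂ))
    (charDegree_cast (isCharacter_of_irr χ.2)).symm (charDegree_cast (isCharacter_of_irr η.2)).symm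
  have hcopK : (Nat.card K).Coprime p := by
    rw [hKdef]; exact Cfsg.Agent.Lib.Helper5.pPrimeCore_coprime
  have hcop : (Nat.card (K.subgroupOf A)).Coprime (K.subgroupOf A).index := by
    rw [Nat.card_congr (Subgroup.subgroupOfEquivOfLe hKA).toEquiv]
    obtain ⟨k, hk⟩ := relIndex_pPrimeCore_pPrimePCore (p := p) (G := G)
    have h1 : K.relIndex A ∣ p ^ k := by
      rw [← hk, ← hKdef, ← Subgroup.relIndex_mul_relIndex K A (pPrimePCore p G) hKA
        (zCore_le hcons)]
      exact dvd_mul_right _ _
    exact Nat.Coprime.coprime_dvd_right h1 (Nat.Coprime.pow_right k hcopK)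
  have hab : ∀ x y : A, x * y * x⁻¹ * y⁻¹ ∈ K.subgroupOf A := by
    intro x y
    rw [Subgroup.mem_subgroupOf, hKdef]
    exact zCore_comm hcons x.2 y.2
  have hdeg : (η : A → ℂ) 1 = (θ : K → ℂ) 1 := by
    have := degree_eq_of_coprime_abelian (K.subgroupOf A) hcop hab (towerIrr hKA θ).2
      (by
        intro g n
        rw [towerIrr_apply, towerIrr_apply]
        have := congrArg (fun t : IrrCharacter K => (t : K → ℂ) ⟨((n : A) : G),
          Subgroup.mem_subgroupOf.1 n.2⟩) (hθ (g : G))
        simp only [conjIrr_apply] at this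
        exact this) η.2
      (by rw [classInner_tower hKA]; exact hη2)
    rw [this, towerIrr_apply]
    rfl
  have hdeg' : charDegree (η : A → ℂ) = charDegree (θ : K → ℂ) := by
    have h1 := charDegree_cast (isCharacter_of_irr η.2)
    have h2 := charDegree_cast (isCharacter_of_irr θ.2)
    rw [hdeg, ← h2] at h1
    exact_mod_cast h1
  have hpd : ¬ p ∣ charDegree (η : A → ℂ) := by
    rw [hdeg']
    intro h
    have := h.trans (charDegree_dvd_card θ)
    exact hp.one_lt.ne' (Nat.eq_one_of_dvd_coprimes hcopK this dvd_rfl)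
  obtain ⟨hdc, hq⟩ := h887
  have hc0 : charDegree (χ : G → ℂ) ≠ 0 := (charDegree_pos χ).ne'
  have hd0 : charDegree (η : A → ℂ) ≠ 0 := (charDegree_pos η).ne'
  have hq0 : charDegree (χ : G → ℂ) / charDegree (η : A → ℂ) ≠ 0 := by
    intro h
    rw [Nat.div_eq_zero_iff] at h
    rcases h with h | h
    · exact hd0 h
    · exact absurd (Nat.le_of_dvd (charDegree_pos χ) hdc) (not_le.2 h)
  have hAi : A.index ≠ 0 := Subgroup.index_ne_zero_of_finite
  have h1 : (charDegree (χ : G → ℂ)).factorization p ≤ A.index.factorization p := by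
    have e : charDegree (χ : G → ℂ)
        = charDegree (χ : G → ℂ) / charDegree (η : A → ℂ) * charDegree (η : A → ℂ) :=
      (Nat.div_mul_cancel hdc).symm
    rw [e, Nat.factorization_mul hq0 hd0, Finsupp.add_apply,
      Nat.factorization_eq_zero_of_not_dvd hpd, add_zero]
    exact (Nat.factorization_le_iff_dvd hq0 hAi).2 hq p
  refine h1.trans ?_
  have hZA : (Subgroup.center (P : Subgroup G)).map (P : Subgroup G).subtype ≤ A := by
    rintro _ ⟨z, hz, rfl⟩
    apply center_sylow_le_zCore P z.2
    intro x hx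
    have := (Subgroup.mem_center_iff.1 hz) ⟨x, hx⟩
    exact congrArg Subtype.val this
  have hZc : Nat.card (Subgroup.center (P : Subgroup G)) ∣ Nat.card A := by
    rw [← Subgroup.card_map_of_injective (Subgroup.subtype_injective (P : Subgroup G))]
    exact Subgroup.card_dvd_of_le hZA
  have e1 := Subgroup.card_mul_index A
  have e2 := Subgroup.card_mul_index (Subgroup.center (P : Subgroup G))
  have e3 : (Nat.card (P : Subgroup G)).factorization p = (Nat.card G).factorization p := by
    rw [Sylow.card_eq_multiplicity, Nat.factorization_pow, Finsupp.smul_apply,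
      hp.factorization_self, smul_eq_mul, mul_one]
  have hA0 : Nat.card A ≠ 0 := Nat.card_pos.ne'
  have hZ0 : Nat.card (Subgroup.center (P : Subgroup G)) ≠ 0 := Nat.card_pos.ne'
  have hZi : (Subgroup.center (P : Subgroup G)).index ≠ 0 := Subgroup.index_ne_zero_of_finite
  have f1 := congrArg (fun n => n.factorization p) e1
  have f2 := congrArg (fun n => n.factorization p) e2
  simp only [Nat.factorization_mul hA0 hAi, Nat.factorization_mul hZ0 hZi, Finsupp.add_apply]
    at f1 f2
  have f3 := (Nat.factorization_le_iff_dvd hZ0 hA0).2 hZc p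
  omega

theorem center_index_congr {A B : Type*} [Group A] [Group B] [Finite A] (e : A ≃* B) :
    (Subgroup.center A).index = (Subgroup.center B).index := by
  haveI : Finite B := Finite.of_equiv A e.toEquiv
  have h1 := Subgroup.card_mul_index (Subgroup.center A)
  have h2 := Subgroup.card_mul_index (Subgroup.center B)
  rw [Nat.card_congr e.toEquiv, ← h2,
    Nat.card_congr (Subgroup.centerCongr e).toEquiv] at h1
  exact Nat.eq_of_mul_eq_mul_left Nat.card_pos h1

theorem fong_of_isPConstrained [Fintype G] [Fact p.Prime] (hM : IsPModular p M)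
    (hcons : IsPConstrained p G) (K : Subgroup G)
    [hK : K.Normal] [Fintype K] (hKdef : K = pPrimeCore p G) (θ : IrrCharacter K)
    (hθ : ∀ g : G, conjIrr K θ g = θ) :
    ∃ B : Set (IrrCharacter G), IsPBlock M B ∧
      (∀ χ : IrrCharacter G, χ ∈ B ↔ classInner (fun k : K => (χ : G → ℂ) k) (θ : K → ℂ) ≠ 0) ∧
      blockDefect p B = (Nat.card G).factorization p := by
  obtain ⟨P0⟩ : Nonempty (Sylow p ↥(pPrimePCore p G)) := inferInstance
  have hQS : ¬ p ∣ ((P0 : Subgroup ↥(pPrimePCore p G)).map
      (pPrimePCore p G).subtype).relIndex (pPrimePCore p G) := by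
    have h1 : ((P0 : Subgroup ↥(pPrimePCore p G)).map
      (pPrimePCore p G).subtype).subgroupOf (pPrimePCore p G) = P0 :=
      Subgroup.comap_map_eq_self_of_injective (Subgroup.subtype_injective _) _
    unfold Subgroup.relIndex
    rw [h1]
    exact P0.not_dvd_index
  exact fong_pconstrained hM K hKdef (Subgroup.map_subtype_le _) (P0.2.map _) hQS (hcons P0) θ hθ

/-- In a `p`-solvable group heights are bounded by `ν_p |P : Z(P)|`. -/
theorem height_le_psolvable [Fact p.Prime] (hM : IsPModular p M) :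
    ∀ (n : ℕ) (G : Type u) [Group G] [Finite G], Nat.card G = n → IsPSolvable p G →
      ∀ B : Set (IrrCharacter G), IsPBlock M B → ∀ P : Subgroup G, IsDefectGroup p M B P →
        ∀ χ : IrrCharacter G, χ ∈ B →
          blockHeight p B (χ : G → ℂ) ≤ ((Subgroup.center P).index).factorization p := by
  intro n
  induction n using Nat.strong_induction_on with
  | _ n ih =>
  intro G _ _ hn hsolv B hB P hP χ hχ
  classical
  haveI := IsPModular.isPrime hM
  haveI : Fintype G := Fintype.ofFinite G
  set K := pPrimeCore p G with hK_def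
  haveI : K.Normal := pPrimeCore_normal p G
  haveI : Fintype K := Fintype.ofFinite _
  have hpK : ¬ p ∣ Nat.card K := not_dvd_card_pPrimeCore_pc hM.1
  obtain ⟨θ, hθ⟩ := exists_constituent_res K χ
  have hb : IsPBlock M ({θ} : Set (IrrCharacter K)) := by
    rw [← blockOf_eq_singleton_of_pPrime K hM hpK θ]
    exact ⟨θ, rfl⟩
  set T := blockStab K ({θ} : Set (IrrCharacter K)) with hT_def
  haveI : Fintype T := Fintype.ofFinite _
  have hT := mem_blockStab_iff K hb
  have hNT : K ≤ T := le_blockStab K _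
  by_cases htop : T = ⊤
  · -- invariant case
    have hinv : ∀ g : G, conjIrr K θ g = θ := by
      intro g
      have : g ∈ T := by rw [htop]; trivial
      exact (hT g).1 this θ rfl
    have hcons := isPConstrained_of_isPSolvable hsolv
    obtain ⟨B0, hB0, hmem, hd⟩ := fong_of_isPConstrained hM hcons K hK_def θ hinv
    have e : B = B0 := by
      rw [isPBlock_eq_blockOf hB hχ, isPBlock_eq_blockOf hB0 ((hmem χ).2 hθ)]
    subst e
    obtain ⟨S, rfl⟩ := exists_sylow_of_full_defect hM hB hd hP
    exact (Nat.sub_le _ _).trans (factorization_degree_le hcons K hK_def θ hinv χ hθ S)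
  · -- Fong-Reynolds
    obtain ⟨η, hη, hc⟩ := fr_exists K T hNT hT ⟨θ, rfl, hθ⟩
    have he := (fr_core K T hNT hb hT hη hc).1
    have hB' : IsPBlock M (blockOf M (η : T → ℂ)) := ⟨η, rfl⟩
    have hcov' : ∃ ψ ∈ blockOf M (η : T → ℂ), Over K T hNT {θ} (ψ : T → ℂ) :=
      ⟨η, self_mem_blockOf η, hη⟩
    obtain ⟨hall, B₁, hind, -, hmem⟩ := fr_block K T hNT hb hT hB' hcov'
    have h1 : χ ∈ B₁ := (hmem χ).2 ⟨η, self_mem_blockOf η, he⟩
    have e : B = B₁ := by rw [isPBlock_eq_blockOf hB hχ, isPBlock_eq_blockOf hind.2.1 h1]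
    subst e
    have hirr := fun ψ hψ => fr_irr K T hNT hb hT (hall ψ hψ)
    rw [blockHeight_indFun T p hmem hirr (self_mem_blockOf η) he]
    obtain ⟨D, hD⟩ := exists_defectGroup hM hB'
    have hD' := defectGroup_indFun T hM hind hmem hirr hD
    obtain ⟨t, ht⟩ := defectGroup_le_conj hM hB hD' hP
    have hPeq : P = (D.map T.subtype).map (MulAut.conj t).toMonoidHom := by
      apply Subgroup.eq_of_le_of_card_ge ht
      rw [Subgroup.card_map_of_injective (MulAut.conj t).injective, card_defectGroup hM hB hD',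
        card_defectGroup hM hB hP]
    have hlt : Nat.card T < n := by
      rw [← hn]
      exact lt_of_le_of_ne (Subgroup.card_le_card_group T)
        (fun h => htop (Subgroup.eq_top_of_card_eq T h))
    have key := ih (Nat.card T) hlt T rfl (isPSolvable_subgroup_h7 hM.1 hsolv T) _ hB' D hD η
      (self_mem_blockOf η)
    have eq1 : D ≃* P :=
      ((Subgroup.equivMapOfInjective D T.subtype (Subgroup.subtype_injective T)).trans
        (Subgroup.equivMapOfInjective (D.map T.subtype) (MulAut.conj t).toMonoidHom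
          (MulAut.conj t).injective)).trans (MulEquiv.subgroupCongr hPeq.symm)
    rw [← center_index_congr eq1]
    exact key

end Cfsg.Agent.Lib.Helper7
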