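import Cfsg.Agent.Lib.Helper7.BlockHK
import Cfsg.Agent.Lib.Helper7.BlockPCons2
import Cfsg.Agent.Lib.Helper24.SelfCent
import Cfsg.Agent.S0661
import Cfsg.Agent.S0631
import Cfsg.Agent.S4444

set_option autoImplicit false
set_option linter.style.haveILetI false
set_option linter.unusedSectionVars false
open Cfsg
open scoped ComplexConjugate

namespace Cfsg.Agent.Lib.Helper7

universe u
variable {G : Type u} [Group G] {M : Ideal AlgInt} {p : ℕ}

/-- Every block of the centralizer of a `p`-subgroup induces a block of `G`. -/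
theorem exists_induced_centralizer [Finite G] (hM : IsPModular p M) {R : Subgroup G}
    (hR : IsPGroup p R) {b : Set (IrrCharacter (Subgroup.centralizer (R : Set G)))}
    (hb : IsPBlock M b) : ∃ B : Set (IrrCharacter G),
      IsInducedBlock M (Subgroup.centralizer (R : Set G)) b B := by
  classical
  haveI := hM.2.1.isPrime
  haveI := Fintype.ofFinite G
  haveI : Fintype (Subgroup.centralizer (R : Set G)) := Fintype.ofFinite _
  obtain ⟨ξ0, hξ0⟩ := isPBlock_nonempty hb
  obtain ⟨B, hB, hBr⟩ := exists_block_brauer hM hR le_rfl (centralizer_le_normalizer' R) ξ0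
  refine ⟨B, hb, hB, ?_⟩
  intro ξ hξ χ hχ g
  have hc : IsClassFunction G (fun x => if IsConj g x then (1 : ℂ) else 0) :=
    isClassFunction_indicator g
  have hcS : ∀ x, MemLocalRing M ((fun x => if IsConj g x then (1 : ℂ) else 0) x) :=
    fun x => memLocalRing_indicator_isConj (M := M) g x
  have h1 : resH (Subgroup.centralizer (R : Set G)) (fun x => if IsConj g x then (1 : ℂ) else 0)
      = brH R (Subgroup.centralizer (R : Set G)) (fun x => if IsConj g x then (1 : ℂ) else 0) := by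
    funext h
    simp only [resH, brH]
    rw [if_pos h.2]
  have h2 : MemLocalIdeal M
      (Om (brH R (Subgroup.centralizer (R : Set G)) (fun x => if IsConj g x then (1 : ℂ) else 0)) ξ
      - Om (brH R (Subgroup.centralizer (R : Set G))
          (fun x => if IsConj g x then (1 : ℂ) else 0)) ξ0) :=
    centralSubring_congr ⟨_, isClassFunction_brH (centralizer_le_normalizer' R) hc,
      memLocalRing_brH hcS, rfl⟩ (sameBlock_of_mem hb hξ hξ0)
  have h3 := hBr χ hχ _ hc hcS
  rw [inducedCentralChar_eq_Om, centralChar_eq_Om, h1]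
  have := memLocalIdeal_add h2 h3
  rwa [sub_add_sub_cancel] at this

section partB
variable [Fintype G] (N H : Subgroup G) [hN : N.Normal] [Fintype N] [Fintype H]
  [Fintype ↥(H ⊓ N)] [Fintype ((H ⊓ N).subgroupOf H)]

theorem Om_resH_of_constituent {z : G → ℂ} (hz : IsClassFunction G z)
    (hsupp : ∀ y, y ∉ N → z y = 0) {ψ : IrrCharacter H} {ξ : IrrCharacter ↥(H ⊓ N)}
    (hcon : classInner (fun n : (H ⊓ N).subgroupOf H => (ψ : H → ℂ) n)
      (towerIrr inf_le_left ξ : (H ⊓ N).subgroupOf H → ℂ) ≠ 0) :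
    Om (resH H z) ψ = Om (resH (H ⊓ N) z) ξ := by
  have hext : extH ((H ⊓ N).subgroupOf H) (resH ((H ⊓ N).subgroupOf H) (resH H z)) = resH H z := by
    funext y
    by_cases hy : y ∈ (H ⊓ N).subgroupOf H
    · rw [extH_of_mem _ _ hy]; rfl
    · rw [extH_of_not_mem _ _ hy]
      symm
      apply hsupp
      intro hyN
      exact hy ⟨y.2, hyN⟩
  have := Om_extH_eq_of_constituent ((H ⊓ N).subgroupOf H)
    (f := resH ((H ⊓ N).subgroupOf H) (resH H z))
    (by rw [hext]; exact isClassFunction_resH H hz) hcon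
  rw [hext, Om_resH_tower] at this
  exact this

end partB

theorem Om_resH_blockCoeff_singleton [Fintype G] (K J : Subgroup G) [Fintype K] [Fintype J]
    (hJK : J ≤ K) (θ : IrrCharacter K) (η : IrrCharacter J) {m : ℕ}
    (hm : classInner (fun c : J => (θ : K → ℂ) ⟨c, hJK c.2⟩) (η : J → ℂ) = m) :
    Om (resH J (extH K (blockCoeff ({θ} : Set (IrrCharacter K))))) η
        * ((Nat.card K : ℂ) * (η : J → ℂ) 1)
      = (θ : K → ℂ) 1 * (Nat.card J : ℂ) * m := by
  have hK : (Nat.card K : ℂ) ≠ 0 := by exact_mod_cast Nat.card_pos.ne'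
  have hJ : (Nat.card J : ℂ) ≠ 0 := by exact_mod_cast Nat.card_pos.ne'
  have hη := irr_apply_one_ne_zero η.2
  have h1 : ∑ x : J, (θ : K → ℂ) ⟨x, hJK x.2⟩ * conj ((η : J → ℂ) x) = (Nat.card J : ℂ) * m := by
    rw [← hm, classInner, ← mul_assoc, mul_inv_cancel₀ hJ, one_mul]
  have h2 : ∑ x : J, conj ((θ : K → ℂ) ⟨x, hJK x.2⟩) * (η : J → ℂ) x = (Nat.card J : ℂ) * m := by
    have := congrArg conj h1
    simpa [map_sum, map_mul] using this
  have h3 : ∀ x : J, resH J (extH K (blockCoeff ({θ} : Set (IrrCharacter K)))) x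
      = (Nat.card K : ℂ)⁻¹ * ((θ : K → ℂ) 1 * conj ((θ : K → ℂ) ⟨x, hJK x.2⟩)) := by
    intro x
    rw [resH, extH_of_mem K _ (hJK x.2), blockCoeff, finsum_mem_singleton]
  unfold Om
  simp only [h3]
  have h4 : ∑ x : J, (Nat.card K : ℂ)⁻¹ * ((θ : K → ℂ) 1 * conj ((θ : K → ℂ) ⟨x, hJK x.2⟩))
      * (η : J → ℂ) x = (Nat.card K : ℂ)⁻¹ * (θ : K → ℂ) 1 * ((Nat.card J : ℂ) * m) := by
    rw [← h2, Finset.mul_sum]
    apply Finset.sum_congr rfl
    intro x _
    ring
  rw [h4]
  field_simp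

theorem memLocalIdeal_Om_resH_iff [Fintype G] (hM : IsPModular p M) (K J : Subgroup G) [Fintype K]
    [Fintype J] (hpK : ¬ p ∣ Nat.card K) (hJK : J ≤ K) (θ : IrrCharacter K) (η : IrrCharacter J)
    {m : ℕ} (hm : classInner (fun c : J => (θ : K → ℂ) ⟨c, hJK c.2⟩) (η : J → ℂ) = m) :
    MemLocalIdeal M (Om (resH J (extH K (blockCoeff ({θ} : Set (IrrCharacter K))))) η) ↔ p ∣ m := by
  haveI := IsPModular.isPrime hM
  have hX := Om_resH_blockCoeff_singleton K J hJK θ η hm
  rw [← charDegree_cast (isCharacter_of_irr η.2), ← charDegree_cast (isCharacter_of_irr θ.2)] at hX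
  have hpJ : ¬ p ∣ Nat.card J := fun h => hpK (h.trans (Subgroup.card_dvd_of_le hJK))
  have hpη : ¬ p ∣ charDegree (η : J → ℂ) := fun h => hpJ (h.trans (charDegree_dvd_card η))
  have hpθ : ¬ p ∣ charDegree (θ : K → ℂ) := fun h => hpK (h.trans (charDegree_dvd_card θ))
  have hp1 : ¬ p ∣ Nat.card K * charDegree (η : J → ℂ) := fun h =>
    (hM.1.dvd_mul.1 h).elim hpK hpη
  have hX' : Om (resH J (extH K (blockCoeff ({θ} : Set (IrrCharacter K))))) η
      * ((Nat.card K * charDegree (η : J → ℂ) : ℕ) : ℂ)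
      = ((charDegree (θ : K → ℂ) * Nat.card J * m : ℕ) : ℂ) := by
    push_cast
    exact hX
  constructor
  · intro h
    have h1 := memLocalIdeal_mul_right h
      (memLocalRing_natCast (M := M) (Nat.card K * charDegree (η : J → ℂ)))
    rw [hX', memLocalIdeal_natCast_iff hM] at h1
    rcases hM.1.dvd_mul.1 h1 with h2 | h2
    · exact ((hM.1.dvd_mul.1 h2).elim hpθ hpJ).elim
    · exact h2
  · intro h
    have hne : ((Nat.card K * charDegree (η : J → ℂ) : ℕ) : ℂ) ≠ 0 := by
      intro h0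
      apply hp1
      have : Nat.card K * charDegree (η : J → ℂ) = 0 := by exact_mod_cast h0
      rw [this]
      exact dvd_zero p
    have h1 : Om (resH J (extH K (blockCoeff ({θ} : Set (IrrCharacter K))))) η
        = ((charDegree (θ : K → ℂ) * Nat.card J * m : ℕ) : ℂ)
          * ((Nat.card K * charDegree (η : J → ℂ) : ℕ) : ℂ)⁻¹ := by
      rw [← hX', mul_assoc, mul_inv_cancel₀ hne, mul_one]
    rw [h1]
    exact memLocalIdeal_mul_right
      ((memLocalIdeal_natCast_iff hM _).2 (Dvd.dvd.mul_left h _))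
      (memLocalRing_inv_natCast hM hp1)

theorem normal_centralizer_subgroupOf_normalizer (R : Subgroup G) :
    ((Subgroup.centralizer (R : Set G)).subgroupOf (Subgroup.normalizer (R : Set G))).Normal := by
  constructor
  intro c hc n
  rw [Subgroup.mem_subgroupOf] at hc ⊢
  have := (conj_mem_centralizer_iff n.2 (c : G)).2 hc
  simpa using this

theorem pPrimeCore_centralizer [Finite G] [Fact p.Prime] (hcons : IsPConstrained p G)
    {R : Subgroup G} (hR : IsPGroup p R) :
    (Subgroup.centralizer (R : Set G) ⊓ pPrimeCore p G).subgroupOf (Subgroup.centralizer (R : Set G))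
      = pPrimeCore p ↥(Subgroup.centralizer (R : Set G)) := by
  apply le_antisymm
  · apply Cfsg.Agent.Lib.Helper5.le_pPrimeCore (normal_inf_subgroupOf _ _)
    have h1 : Nat.card ((Subgroup.centralizer (R : Set G) ⊓ pPrimeCore p G).subgroupOf
        (Subgroup.centralizer (R : Set G))) ∣ Nat.card (pPrimeCore p G) := by
      rw [card_subgroupOf_of_le inf_le_left]
      exact Subgroup.card_dvd_of_le inf_le_right
    exact Nat.Coprime.of_dvd_left h1 Cfsg.Agent.Lib.Helper5.pPrimeCore_coprime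
  · intro x hx
    refine ⟨x.2, ?_⟩
    have hCN := centralizer_le_normalizer' R
    haveI := normal_centralizer_subgroupOf_normalizer R
    have h1 := Cfsg.Agent.Lib.Helper5.pPrimeCore_map_equiv (p := p)
      (Subgroup.subgroupOfEquivOfLe hCN)
    rw [← h1] at hx
    obtain ⟨y, hy, rfl⟩ := hx
    have h2 : (y : Subgroup.normalizer (R : Set G)) ∈ pPrimeCore p _ :=
      Cfsg.Agent.Lib.Helper24.SC.pPrimeCore_map_le p
        ((Subgroup.centralizer (R : Set G)).subgroupOf (Subgroup.normalizer (R : Set G)))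
        ⟨y, hy, rfl⟩
    have h3 := Cfsg.Agent.S0661.result (Cfsg.Agent.Lib.Helper5.isPConstrained_iff.1 hcons) R hR
    have h4 : ((y : Subgroup.normalizer (R : Set G)) : G)
        ∈ pPrimeCore p G ⊓ Subgroup.normalizer (R : Set G) := by
      rw [← h3]
      exact ⟨_, h2, rfl⟩
    exact h4.1

theorem eq_of_mem_of_mem [M.IsPrime] {A : Type u} [Group A] {b b' : Set (IrrCharacter A)}
    (hb : IsPBlock M b) (hb' : IsPBlock M b') {ξ : IrrCharacter A} (h : ξ ∈ b) (h' : ξ ∈ b') :
    b = b' := by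
  rw [isPBlock_eq_blockOf hb h, isPBlock_eq_blockOf hb' h']

section main
variable [Fintype G] (K : Subgroup G) [hK : K.Normal] [Fintype K]

theorem classInner_conjIrrIn_of_invariant (C : Subgroup G) [Fintype ↥(C ⊓ K)]
    (θ : IrrCharacter K) (hθ : ∀ g : G, conjIrr K θ g = θ) (β : IrrCharacter ↥(C ⊓ K)) (g : C) :
    classInner (fun c : ↥(C ⊓ K) => (θ : K → ℂ) ⟨c, c.2.2⟩)
        (conjIrrIn inf_le_left β g : ↥(C ⊓ K) → ℂ)
      = classInner (fun c : ↥(C ⊓ K) => (θ : K → ℂ) ⟨c, c.2.2⟩) (β : ↥(C ⊓ K) → ℂ) := by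
  unfold classInner
  congr 1
  symm
  rw [← Equiv.sum_comp (conjL K C g)]
  apply Finset.sum_congr rfl
  intro x _
  rw [conjIrrIn_apply inf_le_left β g x (conj_mem_inf K C g x)]
  have h1 : (θ : K → ℂ) ⟨((conjL K C g x : ↥(C ⊓ K)) : G), (conjL K C g x).2.2⟩
      = (θ : K → ℂ) ⟨x, x.2.2⟩ := by
    have := congrArg (fun t : IrrCharacter K => (t : K → ℂ) ⟨x, x.2.2⟩) (hθ (g : G))
    simp only [conjIrr_apply] at this
    exact this
  show (θ : K → ℂ) ⟨((conjL K C g x : ↥(C ⊓ K)) : G), (conjL K C g x).2.2⟩ * _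
    = (θ : K → ℂ) ⟨x, x.2.2⟩ * _
  rw [h1]
  rfl

/-- A block `Irr(G | θ)` over an invariant character of `O_{p'}(G)`, `G` `p`-constrained, is of
principal type. -/
theorem existsUnique_induced_centralizer [Fact p.Prime] (hM : IsPModular p M)
    (hKdef : K = pPrimeCore p G) (hcons : IsPConstrained p G) (θ : IrrCharacter K)
    (hθ : ∀ g : G, conjIrr K θ g = θ) {B : Set (IrrCharacter G)} (hB : IsPBlock M B)
    (hBmem : ∀ χ : IrrCharacter G, χ ∈ B ↔
      classInner (fun k : K => (χ : G → ℂ) k) (θ : K → ℂ) ≠ 0)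
    (R : Subgroup G) (hR : IsPGroup p R) :
    ∃! f : Set (IrrCharacter (Subgroup.centralizer (R : Set G))),
      IsInducedBlock M (Subgroup.centralizer (R : Set G)) f B := by
  classical
  haveI := IsPModular.isPrime hM
  set C := Subgroup.centralizer (R : Set G) with hC_def
  haveI : Fintype C := Fintype.ofFinite _
  haveI : Fintype ↥(C ⊓ K) := Fintype.ofFinite _
  haveI : Fintype ((C ⊓ K).subgroupOf C) := Fintype.ofFinite _
  have hpK : ¬ p ∣ Nat.card K := by rw [hKdef]; exact not_dvd_card_pPrimeCore_pc hM.1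
  -- Glauberman
  have hcop : (Nat.card K).Coprime (Nat.card R) := by
    obtain ⟨k, hk⟩ := IsPGroup.iff_card.1 hR
    rw [hk]
    exact Nat.Coprime.pow_right k ((Nat.Prime.coprime_iff_not_dvd hM.1).2 hpK).symm
  obtain ⟨β, ⟨m, hm, hpm⟩, hβuniq⟩ := (Cfsg.Agent.S4444.result K R
    (fun s _ g hg => hK.conj_mem g hg s) hcop p hM.1 hR (C ⊓ K) (inf_comm _ _) inf_le_right).1 θ
    (by
      intro s _ g g' hgg
      have := congrArg (fun t : IrrCharacter K => (t : K → ℂ) g) (hθ s)
      simp only [conjIrr_apply] at this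
      have e : g' = (⟨s * g * s⁻¹, hK.conj_mem g g.2 s⟩ : K) := Subtype.ext hgg
      rw [e]
      exact this)
  -- the idempotent
  have hinv' : ∀ (θ' : IrrCharacter K) (x : G),
      conjIrr K θ' x ∈ ({θ} : Set (IrrCharacter K)) ↔ θ' ∈ ({θ} : Set (IrrCharacter K)) := by
    intro θ' x
    rw [Set.mem_singleton_iff, Set.mem_singleton_iff]
    constructor
    · intro h
      have h2 : conjIrr K (conjIrr K θ' x) x⁻¹ = conjIrr K θ x⁻¹ := by rw [h]
      rw [conjIrr_cancel_inv, hθ] at h2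
      exact h2
    · intro h; rw [h, hθ]
  have hzB : extH K (blockCoeff ({θ} : Set (IrrCharacter K))) = blockCoeff B := by
    rw [extH_blockCoeff_eq K hinv']
    congr 1
    ext χ
    rw [hBmem]
    constructor
    · rintro ⟨θ', hθ', h⟩
      rw [Set.mem_singleton_iff.1 hθ'] at h
      exact h
    · intro h
      exact ⟨θ, rfl, h⟩
  have hz : IsClassFunction G (blockCoeff B) := isClassFunction_blockCoeff B
  have hzS : ∀ g, MemLocalRing M (blockCoeff B g) := osima hB
  have hsupp : ∀ y, y ∉ K → blockCoeff B y = 0 := by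
    intro y hy
    rw [← hzB, extH_of_not_mem K _ hy]
  have hkey : ∀ (ξ : IrrCharacter C) (η : IrrCharacter ↥(C ⊓ K)),
      classInner (fun n : (C ⊓ K).subgroupOf C => (ξ : C → ℂ) n)
        (towerIrr inf_le_left η : (C ⊓ K).subgroupOf C → ℂ) ≠ 0 →
      ∀ m' : ℕ, classInner (fun c : ↥(C ⊓ K) => (θ : K → ℂ) ⟨c, c.2.2⟩) (η : ↥(C ⊓ K) → ℂ) = m' →
      (MemLocalIdeal M (Om (resH C (blockCoeff B)) ξ) ↔ p ∣ m') := by
    intro ξ η hcon m' hm'
    rw [Om_resH_of_constituent K C hz hsupp hcon, ← hzB]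
    exact memLocalIdeal_Om_resH_iff hM K (C ⊓ K) hpK inf_le_right θ η hm'
  -- the block of `C` over `β`
  have hconsC : IsPConstrained p ↥C := (Cfsg.Agent.S0631.result hcons R hR).2
  have hKC : (C ⊓ K).subgroupOf C = pPrimeCore p ↥C := by
    rw [hKdef]; exact pPrimeCore_centralizer hcons hR
  obtain ⟨P0⟩ : Nonempty (Sylow p ↥(pPrimePCore p ↥C)) := inferInstance
  have hQS : ¬ p ∣ ((P0 : Subgroup ↥(pPrimePCore p ↥C)).map
      (pPrimePCore p ↥C).subtype).relIndex (pPrimePCore p ↥C) := by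
    have h1 : ((P0 : Subgroup ↥(pPrimePCore p ↥C)).map
      (pPrimePCore p ↥C).subtype).subgroupOf (pPrimePCore p ↥C) = P0 :=
      Subgroup.comap_map_eq_self_of_injective (Subgroup.subtype_injective _) _
    unfold Subgroup.relIndex
    rw [h1]
    exact P0.not_dvd_index
  obtain ⟨f0, hf0, hf0mem, -⟩ := fong_pconstrained hM ((C ⊓ K).subgroupOf C) hKC
    (Subgroup.map_subtype_le _) (P0.2.map _) hQS (hconsC P0) (towerIrr inf_le_left β)
    (by
      intro g
      rw [← towerIrr_conjIrrIn]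
      congr 1
      apply hβuniq
      exact ⟨m, by rw [← hm]; exact classInner_conjIrrIn_of_invariant K C θ hθ β g, hpm⟩)
  -- `f^G = B` implies `f = f0`
  have hfwd : ∀ f : Set (IrrCharacter C), IsInducedBlock M C f B → f = f0 := by
    intro f hf
    obtain ⟨ξ, hξ⟩ := isPBlock_nonempty hf.1
    obtain ⟨χ, hχ⟩ := isPBlock_nonempty hB
    have h1 := induced_congr hf hξ hχ hz hzS
    rw [Om_blockCoeff, Set.indicator_of_mem hχ] at h1
    have h2 : ¬ MemLocalIdeal M (Om (resH C (blockCoeff B)) ξ) := by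
      intro h
      have := memLocalIdeal_sub h h1
      rw [sub_sub_cancel] at this
      exact not_memLocalIdeal_one this
    obtain ⟨η', hη'⟩ := exists_constituent_res ((C ⊓ K).subgroupOf C) ξ
    obtain ⟨η, rfl⟩ : ∃ η, η' = towerIrr inf_le_left η := ⟨_, (irrComap_irrComap_symm _ η').symm⟩
    obtain ⟨m', hm'⟩ := classInner_char_nat
      (isCharacter_comp_hom (isCharacter_of_irr θ.2)
        (Subgroup.inclusion (inf_le_right : C ⊓ K ≤ K))) (isCharacter_of_irr η.2)
    have hm'' : classInner (fun c : ↥(C ⊓ K) => (θ : K → ℂ) ⟨c, c.2.2⟩) (η : ↥(C ⊓ K) → ℂ) = m' :=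
      hm'
    have h3 : ¬ p ∣ m' := fun h => h2 ((hkey ξ η hη' m' hm'').2 h)
    have h4 : η = β := hβuniq η ⟨m', hm'', h3⟩
    rw [h4] at hη'
    exact eq_of_mem_of_mem hf.1 hf0 hξ ((hf0mem ξ).2 hη')
  -- existence
  obtain ⟨B', hB'⟩ := exists_induced_centralizer hM hR hf0
  have hBB' : B' = B := by
    obtain ⟨ξ, hξ⟩ := isPBlock_nonempty hf0
    obtain ⟨χ', hχ'⟩ := isPBlock_nonempty hB'.2.1
    have h1 := induced_congr hB' hξ hχ' hz hzS
    have h2 : ¬ MemLocalIdeal M (Om (resH C (blockCoeff B)) ξ) := fun h =>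
      hpm ((hkey ξ β ((hf0mem ξ).1 hξ) m hm).1 h)
    rw [Om_blockCoeff] at h1
    have h3 : χ' ∈ B := by
      by_contra hcon
      rw [Set.indicator_of_notMem hcon, sub_zero] at h1
      exact h2 h1
    exact eq_of_mem_of_mem hB'.2.1 hB hχ' h3
  rw [hBB'] at hB'
  exact ⟨f0, hB', hfwd⟩

end main

end Cfsg.Agent.Lib.Helper7
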