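import Cfsg.Agent.Lib.Helper7.BlockRobinson

set_option autoImplicit false
set_option linter.style.haveILetI false
set_option linter.unusedSectionVars false
open Cfsg
open scoped ComplexConjugate

namespace Cfsg.Agent.Lib.Helper7

universe u
variable {G : Type u} [Group G] {M : Ideal AlgInt} {p : ℕ}

theorem card_blocks_normal_sylow [Finite G] [Fact p.Prime] (hM : IsPModular p M) (S : Sylow p G)
    [hn : (S : Subgroup G).Normal] :
    Nat.card (BlD p M (S : Subgroup G)) = Nat.card {C : ConjClasses G // ∀ n : G,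
      ConjClasses.mk n = C → ¬ p ∣ orderOf n ∧ n ∈ Subgroup.centralizer ((S : Subgroup G) : Set G)} := by
  classical
  haveI := Fintype.ofFinite G
  have hp : p.Prime := hM.1
  set ι := {C : ConjClasses G // ∀ n : G,
      ConjClasses.mk n = C → ¬ p ∣ orderOf n ∧ n ∈ Subgroup.centralizer ((S : Subgroup G) : Set G)}
    with hι
  haveI : Fintype ι := Fintype.ofFinite _
  set x : ι → G := fun i => Quotient.out i.1 with hx
  have hmk : ∀ i, ConjClasses.mk (x i) = i.1 := fun i => Quotient.out_eq i.1
  have hprop : ∀ i, ¬ p ∣ orderOf (x i) ∧ x i ∈ Subgroup.centralizer ((S : Subgroup G) : Set G) :=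
    fun i => i.2 (x i) (hmk i)
  have hScard : Nat.card (S : Subgroup G) = p ^ (Nat.card G).factorization p :=
    S.card_eq_multiplicity
  have hgood_of : ∀ g : G, ¬ p ∣ orderOf g → g ∈ Subgroup.centralizer ((S : Subgroup G) : Set G) →
      IsGoodElt p (S : Subgroup G) g := by
    intro g h1 h2
    have hle : (S : Subgroup G) ≤ Subgroup.centralizer ({g} : Set G) := by
      intro s hs
      rw [Subgroup.mem_centralizer_singleton_iff]
      exact (Subgroup.mem_centralizer_iff.1 h2) s hs
    refine ⟨h1, hle, ?_⟩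
    rw [hScard]
    congr 1
    apply le_antisymm
    · apply (Nat.Prime.pow_dvd_iff_le_factorization hp Nat.card_pos.ne').1
      rw [← hScard]
      exact Subgroup.card_dvd_of_le hle
    · exact (Nat.factorization_le_iff_dvd Nat.card_pos.ne' Nat.card_pos.ne').2
        (Subgroup.card_subgroup_dvd_card _) p
  have hgood : ∀ i, IsGoodElt p (S : Subgroup G) (x i) := fun i =>
    hgood_of _ (hprop i).1 (hprop i).2
  have hinj : Function.Injective (fun i => ConjClasses.mk (x i)) := by
    intro i j hij
    apply Subtype.ext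
    rw [← hmk i, ← hmk j]
    exact hij
  have hsurj : ∀ g, IsGoodElt p (S : Subgroup G) g → ∃ i, IsConj (x i) g := by
    intro g hg
    have hmem : ∀ n : G, ConjClasses.mk n = ConjClasses.mk g →
        ¬ p ∣ orderOf n ∧ n ∈ Subgroup.centralizer ((S : Subgroup G) : Set G) := by
      intro n hn'
      obtain ⟨c, hc⟩ := isConj_iff.1 (ConjClasses.mk_eq_mk_iff_isConj.1 hn').symm
      constructor
      · rw [← hc]
        have : c * g * c⁻¹ = MulAut.conj c g := rfl
        rw [this, MulEquiv.orderOf_eq]
        exact hg.1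
      · rw [Subgroup.mem_centralizer_iff]
        intro s hs
        have h1 : c⁻¹ * s * c ∈ (S : Subgroup G) := by
          have := hn.conj_mem s hs c⁻¹
          rwa [inv_inv] at this
        have h2 := Subgroup.mem_centralizer_singleton_iff.1 (hg.2.1 h1)
        rw [← hc]
        calc s * (c * g * c⁻¹) = c * ((c⁻¹ * s * c) * g) * c⁻¹ := by group
          _ = c * (g * (c⁻¹ * s * c)) * c⁻¹ := by rw [h2]
          _ = c * g * c⁻¹ * s := by group
    refine ⟨⟨ConjClasses.mk g, hmem⟩, ?_⟩
    apply ConjClasses.mk_eq_mk_iff_isConj.1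
    exact hmk _
  rw [robinson_rank hM (S : Subgroup G) S.2 S x hgood hinj hsurj]
  have hdf : (Nat.card (S : Subgroup G)).factorization p = (Nat.card G).factorization p := by
    rw [hScard, Nat.Prime.factorization_pow hp, Finsupp.single_eq_same]
  rw [hdf, Nat.sub_self, pow_zero]
  have heq : ∀ (i j : ι) (y z : G), IsConj (x i) y → IsConj (x j) z → z * y⁻¹ ∈ (S : Subgroup G) →
      z = y := by
    intro i j y z hy hz hs
    have hy' : ¬ p ∣ orderOf y ∧ y ∈ Subgroup.centralizer ((S : Subgroup G) : Set G) :=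
      i.2 y (by rw [← hmk i]; exact ConjClasses.mk_eq_mk_iff_isConj.2 hy.symm)
    have hz' : ¬ p ∣ orderOf z ∧ z ∈ Subgroup.centralizer ((S : Subgroup G) : Set G) :=
      j.2 z (by rw [← hmk j]; exact ConjClasses.mk_eq_mk_iff_isConj.2 hz.symm)
    by_contra hne
    apply hz'.1
    have e : z = (z * y⁻¹) * y := by group
    rw [e]
    apply singular_of_pElement_mul hp hy'.1
    · obtain ⟨k, hk⟩ := (IsPGroup.iff_orderOf.1 S.2) ⟨_, hs⟩
      exact ⟨k, by rw [← hk, Subgroup.orderOf_mk]⟩
    · exact (Subgroup.mem_centralizer_iff.1 hy'.2) _ hs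
    · intro h1
      apply hne
      rw [e, h1, one_mul]
  have hmat : (Matrix.of fun i j : ι =>
      ((Nat.card {yz : G × G // IsConj (x i) yz.1 ∧ IsConj (x j) yz.2 ∧
          yz.2 * yz.1⁻¹ ∈ (S : Subgroup G)} / 1 : ℕ) : ZMod p))
      = Matrix.diagonal (fun i => (((Subgroup.centralizer ({x i} : Set G)).index : ℕ) : ZMod p)) := by
    ext i j
    rw [Matrix.of_apply, Nat.div_one, Matrix.diagonal_apply]
    by_cases hij : i = j
    · subst hij
      rw [if_pos rfl]
      congr 1
      rw [← card_filter_isConj (x i), ← Fintype.card_subtype, ← Nat.card_eq_fintype_card]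
      apply Nat.card_congr
      refine ⟨fun yz => ⟨yz.1.1, yz.2.1⟩, fun y => ⟨(y.1, y.1), y.2, y.2, by simp⟩, ?_, ?_⟩
      · rintro ⟨⟨y, z⟩, h1, h2, h3⟩
        have := heq i i y z h1 h2 h3
        subst this
        rfl
      · rintro ⟨y, hy⟩
        rfl
    · rw [if_neg hij]
      have : IsEmpty {yz : G × G // IsConj (x i) yz.1 ∧ IsConj (x j) yz.2 ∧
          yz.2 * yz.1⁻¹ ∈ (S : Subgroup G)} := by
        constructor
        rintro ⟨⟨y, z⟩, h1, h2, h3⟩
        have := heq i j y z h1 h2 h3
        subst this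
        apply hij
        apply hinj
        exact ConjClasses.mk_eq_mk_iff_isConj.2 (h1.trans h2.symm)
      rw [Nat.card_of_isEmpty, Nat.cast_zero]
  rw [hmat, Matrix.rank_diagonal, Nat.card_eq_fintype_card]
  apply Fintype.card_congr
  apply Equiv.subtypeUnivEquiv
  intro i
  rw [Ne, ZMod.natCast_eq_zero_iff]
  have h1 := (hgood i).factorization_index hp hScard
  have h2 : (Subgroup.centralizer ({x i} : Set G)).index.factorization p = 0 := by omega
  rcases (Nat.factorization_eq_zero_iff _ _).1 h2 with h | h | h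
  · exact absurd hp h
  · exact h
  · exact absurd h Subgroup.index_ne_zero_of_finite

end Cfsg.Agent.Lib.Helper7
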