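import Cfsg.Agent.Lib.Helper7.BlockNilp

set_option autoImplicit false
set_option linter.style.haveILetI false
open Cfsg
open scoped ComplexConjugate

namespace Cfsg.Agent.Lib.Helper7

universe u
variable {G : Type u} [Group G] {M : Ideal AlgInt} {p : ℕ}

section fin
variable [Fintype G] [DecidableEq G]

/-- weighted count of `n`-tuples with product `w` -/
noncomputable def tupleW (f : G → ℂ) (n : ℕ) (w : G) : ℂ :=
  ∑ v : List.Vector G n, if v.toList.prod = w then (v.toList.map f).prod else 0

theorem cpow_eq_tupleW (f : G → ℂ) (n : ℕ) (w : G) : cpow f n w = tupleW f n w := by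
  induction n generalizing w with
  | zero =>
    rw [tupleW, Fintype.sum_subsingleton _ (List.Vector.nil)]
    simp only [cpow, List.Vector.toList_nil, List.prod_nil, List.map_nil]
    by_cases h : w = 1
    · rw [if_pos h, if_pos h.symm]
    · rw [if_neg h, if_neg (fun h' => h h'.symm)]
  | succ n ih =>
    rw [cpow, conv, tupleW]
    let e : G × List.Vector G n ≃ List.Vector G (n + 1) :=
      { toFun := fun x => x.1 ::ᵥ x.2
        invFun := fun v => (v.head, v.tail)
        left_inv := by intro x; simp
        right_inv := by intro v; simp }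
    rw [← e.sum_comp, Fintype.sum_prod_type]
    apply Finset.sum_congr rfl
    intro a _
    rw [ih, tupleW, Finset.mul_sum]
    apply Finset.sum_congr rfl
    intro v _
    simp only [e, Equiv.coe_fn_mk, List.Vector.toList_cons, List.prod_cons, List.map_cons]
    by_cases h : v.toList.prod = a⁻¹ * w
    · rw [if_pos h, if_pos (by rw [h]; group)]
    · rw [if_neg h, if_neg (fun h' => h (by rw [← h']; group)), mul_zero]

/-- rotation of vectors -/
def vrot {n : ℕ} (k : ℕ) (v : List.Vector G n) : List.Vector G n :=
  ⟨v.1.rotate k, (v.1.length_rotate k).trans v.2⟩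

omit [Fintype G] [DecidableEq G] in
theorem vrot_vrot {n : ℕ} (j k : ℕ) (v : List.Vector G n) : vrot k (vrot j v) = vrot (j + k) v :=
  Subtype.ext (v.1.rotate_rotate j k)

omit [Fintype G] [DecidableEq G] in
theorem vrot_length {n : ℕ} (v : List.Vector G n) : vrot n v = v :=
  Subtype.ext ((congr_arg _ v.2.symm).trans v.1.rotate_length)

omit [Fintype G] [DecidableEq G] in
theorem vrot_zero {n : ℕ} (v : List.Vector G n) : vrot 0 v = v :=
  Subtype.ext v.1.rotate_zero

/-- the rotation permutation -/
def vrotPerm (n : ℕ) (hn : 1 ≤ n) : Equiv.Perm (List.Vector G n) :=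
  Equiv.mk (vrot 1) (vrot (n - 1))
    (fun s => by rw [vrot_vrot, add_tsub_cancel_of_le hn, vrot_length])
    (fun s => by rw [vrot_vrot, tsub_add_cancel_of_le hn, vrot_length])

omit [Fintype G] [DecidableEq G] in
theorem vrotPerm_pow (n : ℕ) (hn : 1 ≤ n) (k : ℕ) (v : List.Vector G n) :
    ((vrotPerm n hn) ^ k) v = vrot k v := by
  induction k generalizing v with
  | zero => rw [pow_zero, vrot_zero]; rfl
  | succ k ih =>
    rw [pow_succ, Equiv.Perm.mul_apply, ih]
    show vrot k (vrot 1 v) = _
    rw [vrot_vrot, add_comm]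

omit [Fintype G] [DecidableEq G] in
theorem vrotPerm_pow_self (n : ℕ) (hn : 1 ≤ n) : (vrotPerm (G := G) n hn) ^ n = 1 := by
  ext1 v
  rw [vrotPerm_pow, vrot_length]; rfl

theorem tupleW_one_congr (hM : IsPModular p M) (f : G → ℂ) (hf : ∀ g, MemLocalRing M (f g))
    (n : ℕ) :
    MemLocalIdeal M (tupleW f (p ^ n) 1 - ∑ a : G, if a ^ (p ^ n) = 1 then f a ^ (p ^ n) else 0) := by
  classical
  haveI := hM.2.1.isPrime
  obtain ⟨q, hq⟩ : ∃ q, q = p ^ n := ⟨_, rfl⟩
  rw [← hq]
  have hq1 : 1 ≤ q := by rw [hq]; exact Nat.one_le_pow _ _ hM.1.pos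
  set ρ := vrotPerm (G := G) q hq1 with hρ
  have hρq : ρ ^ q = 1 := vrotPerm_pow_self q hq1
  have hord : ∃ k : ℕ, orderOf ρ = p ^ k := by
    have : orderOf ρ ∣ p ^ n := by rw [← hq]; exact orderOf_dvd_of_pow_eq_one hρq
    obtain ⟨k, _, hk⟩ := (Nat.dvd_prime_pow hM.1).1 this
    exact ⟨k, hk⟩
  have hQ : IsPGroup p (Subgroup.zpowers ρ) := isPGroup_zpowers hord
  let F : List.Vector G q → ℂ := fun v => if v.toList.prod = 1 then (v.toList.map f).prod else 0
  have hFS : ∀ v, MemLocalRing M (F v) := by
    intro v
    simp only [F]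
    split_ifs
    · apply list_prod_mem (S := localRing M)
      intro x hx
      obtain ⟨a, _, rfl⟩ := List.mem_map.1 hx
      exact hf a
    · exact memLocalRing_zero
  have hF1 : ∀ v, F (ρ v) = F v := by
    intro v
    have hw : ((ρ v).toList.map f).prod = (v.toList.map f).prod := by
      apply List.Perm.prod_eq
      apply List.Perm.map
      exact List.rotate_perm v.1 1
    simp only [F]
    by_cases h : v.toList.prod = 1
    · have h1 : (ρ v).toList.prod = 1 := List.prod_rotate_eq_one_of_prod_eq_one h 1
      rw [if_pos h, if_pos h1, hw]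
    · rw [if_neg h, if_neg]
      intro h'
      apply h
      have h2 := List.prod_rotate_eq_one_of_prod_eq_one h' (q - 1)
      have h3 : vrot (q - 1) (ρ v) = v := (vrotPerm (G := G) q hq1).left_inv v
      have h4 : ((ρ v).toList.rotate (q - 1)) = v.toList := congrArg Subtype.val h3
      rw [h4] at h2
      exact h2
  have hinv : ∀ (s : Subgroup.zpowers ρ) v, F ((Subgroup.zpowers ρ).subtype s v) = F v := by
    rintro ⟨s, k, rfl⟩ v
    simp only [Subgroup.subtype_apply]
    induction k using Int.induction_on generalizing v with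
    | zero => simp
    | succ i ih => rw [zpow_add_one, Equiv.Perm.mul_apply, ih, hF1]
    | pred i ih =>
      rw [zpow_sub_one, Equiv.Perm.mul_apply, ih]
      have := hF1 (ρ⁻¹ v)
      rw [← Equiv.Perm.mul_apply, mul_inv_cancel, Equiv.Perm.one_apply] at this
      exact this.symm
  have key := orbit_sum hM hQ (Subgroup.zpowers ρ).subtype F hFS hinv
  have hfix : ∀ v, (∀ s : Subgroup.zpowers ρ, (Subgroup.zpowers ρ).subtype s v = v) ↔ ρ v = v := by
    intro v
    constructor
    · intro h
      exact h ⟨ρ, Subgroup.mem_zpowers ρ⟩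
    · rintro h ⟨s, k, rfl⟩
      simp only [Subgroup.subtype_apply]
      exact Equiv.Perm.zpow_apply_eq_self_of_apply_eq_self h k
  have e1 : tupleW f q 1 = (∑ v, if (∀ s : Subgroup.zpowers ρ, (Subgroup.zpowers ρ).subtype s v = v)
      then 0 else F v) + ∑ v, if ρ v = v then F v else 0 := by
    rw [tupleW, ← Finset.sum_add_distrib]
    apply Finset.sum_congr rfl
    intro v _
    by_cases h : ρ v = v
    · rw [if_pos ((hfix v).2 h), if_pos h, zero_add]
    · rw [if_neg (fun h' => h ((hfix v).1 h')), if_neg h, add_zero]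
  have e2 : (∑ a : G, if a ^ q = 1 then f a ^ q else 0) = ∑ v, if ρ v = v then F v else 0 := by
    apply Fintype.sum_of_injective (fun a : G => (List.Vector.replicate q a))
    · intro a b hab
      have h1 : (List.Vector.replicate q a).toList = (List.Vector.replicate q b).toList :=
        congrArg List.Vector.toList hab
      simp only [List.Vector.replicate, List.Vector.toList_mk] at h1
      exact (List.replicate_right_inj (by omega)).1 h1
    · intro v hv
      rw [if_neg]
      intro h
      apply hv
      have h1 : v.1.rotate 1 = v.1 := congrArg Subtype.val h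
      obtain ⟨a, ha⟩ := List.rotate_one_eq_self_iff_eq_replicate.1 h1
      refine ⟨a, ?_⟩
      apply Subtype.ext
      rw [ha, v.2]
      rfl
    · intro a
      have h1 : ρ (List.Vector.replicate q a) = List.Vector.replicate q a :=
        Subtype.ext (List.rotate_replicate a q 1)
      rw [if_pos h1]
      simp only [F, List.Vector.replicate, List.Vector.toList_mk, List.prod_replicate,
        List.map_replicate]
  rw [e1, e2, add_sub_cancel_right]
  exact key

end fin

end Cfsg.Agent.Lib.Helper7
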