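import Cfsg.Agent.Lib.Helper7.KleinGroup
import Cfsg.Agent.Lib.Helper7.BlockFirst3
import Cfsg.Agent.S0947
import Cfsg.Agent.S0944

set_option autoImplicit false
set_option linter.style.haveILetI false
open Cfsg
open scoped ComplexConjugate

namespace Cfsg.Agent.Lib.Helper7

universe u
variable {G : Type u} [Group G] {M : Ideal AlgInt}

theorem klein_centralizer_core [Finite G] (P : Sylow 2 G) (hP : IsKleinFour (P : Subgroup G))
    {z : G} (hzP : z ∈ (P : Subgroup G)) (hz1 : z ≠ 1) :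
    (∃ k : ℕ, (pPrimeCore 2 (Subgroup.centralizer ({z} : Set G))).index = 2 ^ k) ∧
      (Nat.card (Subgroup.centralizer ({z} : Set G))).factorization 2 = 2 := by
  haveI : Fact (Nat.Prime 2) := ⟨Nat.prime_two⟩
  have hcomm : ∀ u ∈ (P : Subgroup G), ∀ w ∈ (P : Subgroup G), u * w = w * u := by
    intro u hu w hw
    have := mul_comm_of_exponent_two hP.exponent_two (⟨u, hu⟩ : (P : Subgroup G)) ⟨w, hw⟩
    exact congrArg Subtype.val this
  have hPH : (P : Subgroup G) ≤ Subgroup.centralizer ({z} : Set G) := by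
    intro u hu
    rw [Subgroup.mem_centralizer_iff]
    intro w hw
    rw [Set.mem_singleton_iff.1 hw]
    exact hcomm z hzP u hu
  have hT : IsKleinFour ((P.subtype hPH : Sylow 2 (Subgroup.centralizer ({z} : Set G))) :
      Subgroup (Subgroup.centralizer ({z} : Set G))) := by
    have e : (P : Subgroup G).subgroupOf (Subgroup.centralizer ({z} : Set G)) ≃* (P : Subgroup G) :=
      Subgroup.subgroupOfEquivOfLe hPH
    exact ⟨by rw [Sylow.coe_subtype, Nat.card_congr e.toEquiv]; exact hP.card_four,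
      by rw [Sylow.coe_subtype, Monoid.exponent_eq_of_mulEquiv e]; exact hP.exponent_two⟩
  have hzH : z ∈ Subgroup.centralizer ({z} : Set G) := hPH hzP
  have hNC := klein_normalizer_le_centralizer (P.subtype hPH) hT
    (z := (⟨z, hzH⟩ : Subgroup.centralizer ({z} : Set G)))
    (by rw [Sylow.coe_subtype, Subgroup.mem_subgroupOf]; exact hzP)
    (fun h => hz1 (congrArg Subtype.val h))
    (by
      intro h
      apply Subtype.ext
      exact (Subgroup.mem_centralizer_iff.1 h.2 z (Set.mem_singleton z)).symm)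
  refine ⟨exists_index_pPrimeCore_of_normalizer_le _ hNC, ?_⟩
  have h1 := (P.subtype hPH).card_eq_multiplicity
  rw [hT.card_four] at h1
  have h2 : (2 : ℕ) ^ 2 = 2 ^ (Nat.card (Subgroup.centralizer ({z} : Set G))).factorization 2 := by
    rw [← h1]; norm_num
  exact (Nat.pow_right_injective (le_refl 2) h2).symm

/-- degree congruence modulo `4` -/
theorem klein_degree [Finite G] (P : Sylow 2 G) (hP : IsKleinFour (P : Subgroup G))
    (hone : ∀ s t : G, orderOf s = 2 → orderOf t = 2 → IsConj s t) {z : G} (hz2 : orderOf z = 2)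
    (χ : IrrCharacter G) (n : ℤ) (hn : (χ : G → ℂ) z = (n : ℂ)) :
    (4 : ℤ) ∣ (charDegree (χ : G → ℂ) : ℤ) - n := by
  classical
  haveI := Fintype.ofFinite (P : Subgroup G)
  have hsq : ∀ u : (P : Subgroup G), u * u = 1 := fun u => IsKleinFour.mul_self u
  obtain ⟨m, hm⟩ := classInner_char_nat
    (isCharacter_restrict (isCharacter_of_irr χ.2) (P : Subgroup G))
    (isCharacter_one (G := (P : Subgroup G)))
  rw [classInner, hP.card_four] at hm
  have h1 : ∑ u : (P : Subgroup G), (χ : G → ℂ) u = (charDegree (χ : G → ℂ) : ℂ) + 3 * (n : ℂ) := by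
    rw [← Finset.add_sum_erase Finset.univ _ (Finset.mem_univ (1 : (P : Subgroup G)))]
    congr 1
    · rw [charDegree_cast (isCharacter_of_irr χ.2)]; rfl
    · have h2 : ∀ u ∈ Finset.univ.erase (1 : (P : Subgroup G)), (χ : G → ℂ) u = (n : ℂ) := by
        intro u hu
        have hu1 : u ≠ 1 := (Finset.mem_erase.1 hu).1
        have hu2 : orderOf (u : G) = 2 := by
          rw [Subgroup.orderOf_coe]
          exact orderOf_eq_prime (by rw [pow_two]; exact hsq u) hu1
        obtain ⟨c, hc⟩ := isConj_iff.1 (hone z u hz2 hu2)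
        rw [← hc, isClassFunction_irr χ, hn]
      rw [Finset.sum_congr rfl h2, Finset.sum_const, Finset.card_erase_of_mem (Finset.mem_univ _),
        Finset.card_univ, ← Nat.card_eq_fintype_card, hP.card_four]
      simp
  have h3 : ∑ u : (P : Subgroup G), (χ : G → ℂ) u * conj ((fun _ => (1 : ℂ)) u)
      = ∑ u : (P : Subgroup G), (χ : G → ℂ) u := by
    apply Finset.sum_congr rfl
    intro u _
    simp
  rw [h3, h1] at hm
  have h4 : (charDegree (χ : G → ℂ) : ℂ) + 3 * (n : ℂ) = 4 * (m : ℂ) := by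
    have : ((4 : ℕ) : ℂ) ≠ 0 := by norm_num
    field_simp at hm
    push_cast at hm
    linear_combination hm
  have h5 : (charDegree (χ : G → ℂ) : ℤ) + 3 * n = 4 * (m : ℤ) := by exact_mod_cast h4
  exact ⟨(m : ℤ) - n, by linarith⟩

/-- `S0948` -/
theorem klein_principal [Finite G] (hM : IsPModular 2 M) (P : Sylow 2 G)
    (hP : IsKleinFour (P : Subgroup G))
    (hone : ∀ s t : G, orderOf s = 2 → orderOf t = 2 → IsConj s t) :
    ∃ ζ₂ ζ₃ ζ₄ : IrrCharacter G, ∃ ε : ℤ, (ε = 1 ∨ ε = -1) ∧ (ζ₂ : G → ℂ) ≠ (fun _ => 1) ∧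
      (ζ₃ : G → ℂ) ≠ (fun _ => 1) ∧ ζ₂ ≠ ζ₃ ∧ ζ₂ ≠ ζ₄ ∧ ζ₃ ≠ ζ₄ ∧
      principalBlock M G = {χ : IrrCharacter G | (χ : G → ℂ) = (fun _ => 1) ∨ χ = ζ₂ ∨ χ = ζ₃ ∨
        χ = ζ₄} ∧
      (∀ z : G, orderOf z = 2 → (ζ₂ : G → ℂ) z = 1 ∧ (ζ₃ : G → ℂ) z = (ε : ℂ) ∧
        (ζ₄ : G → ℂ) z = -1) ∧
      (4 : ℤ) ∣ (charDegree (ζ₂ : G → ℂ) : ℤ) - 1 ∧ (4 : ℤ) ∣ (charDegree (ζ₃ : G → ℂ) : ℤ) - ε ∧
      (4 : ℤ) ∣ (charDegree (ζ₄ : G → ℂ) : ℤ) + 1 ∧
      ∀ y : G, Odd (orderOf y) →
        1 + (ζ₂ : G → ℂ) y + (ε : ℂ) * (ζ₃ : G → ℂ) y - (ζ₄ : G → ℂ) y = 0 := by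
  classical
  haveI := hM.2.1.isPrime
  haveI : Fact (Nat.Prime 2) := ⟨hM.1⟩
  haveI := Fintype.ofFinite G
  haveI := Fintype.ofFinite (IrrCharacter G)
  have hcard : Nat.card (P : Subgroup G) = 4 := hP.card_four
  have hsq : ∀ u ∈ (P : Subgroup G), u * u = 1 := fun u hu => by
    have := IsKleinFour.mul_self (⟨u, hu⟩ : (P : Subgroup G))
    exact congrArg Subtype.val this
  obtain ⟨z, hzP, hz1⟩ : ∃ z ∈ (P : Subgroup G), z ≠ 1 := by
    by_contra hcon
    push Not at hcon
    have : (P : Subgroup G) = ⊥ := (Subgroup.eq_bot_iff_forall _).2 hcon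
    rw [this, Subgroup.card_bot] at hcard
    omega
  have hz2 : orderOf z = 2 := orderOf_eq_prime (by rw [pow_two]; exact hsq z hzP) hz1
  obtain ⟨hnc, hν⟩ := klein_centralizer_core P hP hzP hz1
  have h47 := (Cfsg.Agent.S0947.result 2 M hM z ⟨1, by rw [hz2, pow_one]⟩ hz1 1
    (by rw [orderOf_one]; decide)).2 hnc
  rw [hν] at h47
  simp only [Subgroup.coe_one, mul_one] at h47
  choose n hn _ using fun χ : IrrCharacter G => Cfsg.Agent.S0944.result χ z hz2
  have hB : IsPBlock M (principalBlock M G) := Cfsg.Agent.Lib.Helper24.isPBlock_principalBlock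
  obtain ⟨one, hone'⟩ : ∃ one, one = Cfsg.Agent.Lib.Helper24.oneIrr G := ⟨_, rfl⟩
  have hone1 : ∀ g, (one : G → ℂ) g = 1 := by intro g; rw [hone']; rfl
  have honeB : one ∈ principalBlock M G :=
    hone' ▸ Cfsg.Agent.Lib.Helper24.oneIrr_mem_principalBlock
  have hconj : ∀ (χ : IrrCharacter G) (t : G), orderOf t = 2 → (χ : G → ℂ) t = (n χ : ℂ) := by
    intro χ t ht
    obtain ⟨c, hc⟩ := isConj_iff.1 (hone z t hz2 ht)
    rw [← hc, isClassFunction_irr χ, hn]
  -- nonvanishing
  have hn0 : ∀ χ ∈ principalBlock M G, n χ ≠ 0 := by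
    intro χ hχ h0
    have hvan : ∀ g : G, orderOf g = 2 → (χ : G → ℂ) g = 0 := by
      intro g hg
      rw [hconj χ g hg, h0]; simp
    have hdef := defect_zero_of_vanish hM.1 χ hvan
    have hdvd := charDegree_dvd_card χ
    have hnd : ¬ 2 ∣ Nat.card G / charDegree (χ : G → ℂ) := by
      intro hd
      have hq0 : Nat.card G / charDegree (χ : G → ℂ) ≠ 0 := by
        apply Nat.div_ne_zero_iff.2
        exact ⟨(charDegree_pos χ).ne', Nat.le_of_dvd Nat.card_pos hdvd⟩
      have h1 := (Nat.Prime.dvd_iff_one_le_factorization hM.1 hq0).1 hd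
      rw [Nat.factorization_div hdvd] at h1
      simp only [Finsupp.coe_tsub, Pi.sub_apply] at h1
      omega
    have hsing := blockOf_eq_singleton_of_not_dvd hM χ hnd
    have h1 : one ∈ blockOf M (χ : G → ℂ) := by
      have : SameBlock M (one : G → ℂ) (χ : G → ℂ) := sameBlock_of_mem hB honeB hχ
      exact sameBlock_symm this
    rw [hsing, Set.mem_singleton_iff] at h1
    have h2 := hn χ
    rw [h0, ← h1, hone1] at h2
    simp at h2
  obtain ⟨B0, hB0⟩ : ∃ B0 : Finset (IrrCharacter G), ∀ χ, χ ∈ B0 ↔ χ ∈ principalBlock M G :=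
    ⟨Finset.univ.filter (· ∈ principalBlock M G), by simp⟩
  have hB0set : principalBlock M G = (B0 : Set (IrrCharacter G)) := by
    ext χ; exact (hB0 χ).symm
  have hsum4 : ∑ χ ∈ B0, (n χ) ^ 2 = 4 := by
    rw [hB0set, finsum_mem_coe_finset] at h47
    have h1 : ∀ χ ∈ B0, ‖(χ : G → ℂ) z‖ ^ 2 = (((n χ) ^ 2 : ℤ) : ℝ) := by
      intro χ _
      rw [hn, Complex.norm_intCast, sq_abs]
      push_cast; ring
    rw [Finset.sum_congr rfl h1, ← Int.cast_sum] at h47
    have h2 : (((2 ^ 2 : ℕ)) : ℝ) = ((4 : ℤ) : ℝ) := by norm_num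
    rw [h2] at h47
    exact_mod_cast h47
  have hnone : n one = 1 := by
    have := hn one
    rw [hone1] at this
    exact_mod_cast this.symm
  obtain ⟨T, hTdef⟩ : ∃ T, T = B0.erase one := ⟨_, rfl⟩
  have honeB0 : one ∈ B0 := (hB0 one).2 honeB
  have hsum3 : ∑ χ ∈ T, (n χ) ^ 2 = 3 := by
    have := Finset.add_sum_erase B0 (fun χ => (n χ) ^ 2) honeB0
    simp only [hnone] at this
    rw [hTdef]
    linarith
  have hTB : ∀ χ ∈ T, χ ∈ principalBlock M G := by
    intro χ hχ
    rw [hTdef] at hχ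
    exact (hB0 χ).1 (Finset.mem_of_mem_erase hχ)
  have hpm : ∀ χ ∈ T, n χ = 1 ∨ n χ = -1 := by
    intro χ hχ
    have h1 : (n χ) ^ 2 ≤ 3 := by
      rw [← hsum3]
      exact Finset.single_le_sum (f := fun χ => (n χ) ^ 2) (fun i _ => sq_nonneg _) hχ
    have h0 := hn0 χ (hTB χ hχ)
    have h2 : n χ ≤ 1 := by nlinarith
    have h3 : -1 ≤ n χ := by nlinarith
    omega
  have hTcard : T.card = 3 := by
    have h1 : ∑ χ ∈ T, (n χ) ^ 2 = ∑ χ ∈ T, (1 : ℤ) := by
      apply Finset.sum_congr rfl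
      intro χ hχ
      rcases hpm χ hχ with h | h <;> rw [h] <;> norm_num
    rw [hsum3, Finset.sum_const, nsmul_eq_mul, mul_one] at h1
    exact_mod_cast h1.symm
  -- orthogonality
  have horth : ∀ y : G, Odd (orderOf y) → 1 + ∑ χ ∈ T, (n χ : ℂ) * (χ : G → ℂ) y = 0 := by
    intro y hy
    have h1 : IsPPart 2 z z := ⟨1, mul_one z, Commute.one_right z, ⟨1, by rw [hz2, pow_one]⟩, by
      rw [orderOf_one]; decide⟩
    have h2 : IsPPart 2 y⁻¹ 1 := isPPart_one_iff.2 (by
      rw [orderOf_inv]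
      exact fun h => (Nat.not_even_iff_odd.2 hy) (even_iff_two_dvd.2 h))
    have h3 : ¬ IsConj z (1 : G) := by
      intro h
      exact hz1 (isConj_one_right.1 h.symm)
    have h4 := block_orthogonality hM hB h1 h2 h3
    rw [hB0set, finsum_mem_coe_finset, inv_inv,
      ← Finset.add_sum_erase B0 _ honeB0, hone1, hone1, ← hTdef, mul_one] at h4
    rw [← h4]
    congr 1
    apply Finset.sum_congr rfl
    intro χ _
    rw [hn]
  have hdeg : 1 + ∑ χ ∈ T, n χ * (charDegree (χ : G → ℂ) : ℤ) = 0 := by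
    have h1 := horth 1 (by rw [orderOf_one]; exact odd_one)
    have h2 : ∀ χ ∈ T, (n χ : ℂ) * (χ : G → ℂ) 1
        = ((n χ * (charDegree (χ : G → ℂ) : ℤ) : ℤ) : ℂ) := by
      intro χ _
      rw [← charDegree_cast (isCharacter_of_irr χ.2)]
      push_cast; ring
    rw [Finset.sum_congr rfl h2, ← Int.cast_sum] at h1
    exact_mod_cast h1
  have hDpos : ∀ χ : IrrCharacter G, (1 : ℤ) ≤ (charDegree (χ : G → ℂ) : ℤ) := by
    intro χ
    exact_mod_cast charDegree_pos χ
  obtain ⟨x, hxT, hx⟩ : ∃ x ∈ T, n x = 1 := by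
    by_contra hcon
    push Not at hcon
    have h1 : ∑ χ ∈ T, n χ * (charDegree (χ : G → ℂ) : ℤ) ≤ ∑ χ ∈ T, (-1 : ℤ) := by
      apply Finset.sum_le_sum
      intro χ hχ
      have : n χ = -1 := (hpm χ hχ).resolve_left (hcon χ hχ)
      rw [this]
      have := hDpos χ
      linarith
    rw [Finset.sum_const, hTcard] at h1
    norm_num at h1
    linarith
  obtain ⟨w, hwT, hw⟩ : ∃ w ∈ T, n w = -1 := by
    by_contra hcon
    push Not at hcon
    have h1 : 0 ≤ ∑ χ ∈ T, n χ * (charDegree (χ : G → ℂ) : ℤ) := by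
      apply Finset.sum_nonneg
      intro χ hχ
      have : n χ = 1 := (hpm χ hχ).resolve_right (hcon χ hχ)
      rw [this]
      have := hDpos χ
      linarith
    linarith
  have hxw : x ≠ w := by
    rintro rfl
    rw [hx] at hw
    norm_num at hw
  have hwT' : w ∈ T.erase x := Finset.mem_erase.2 ⟨hxw.symm, hwT⟩
  have hc1 : ((T.erase x).erase w).card = 1 := by
    rw [Finset.card_erase_of_mem hwT', Finset.card_erase_of_mem hxT, hTcard]
  obtain ⟨v, hv⟩ := Finset.card_eq_one.1 hc1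
  have hvmem : v ∈ (T.erase x).erase w := by rw [hv]; exact Finset.mem_singleton_self v
  have hvw : v ≠ w := (Finset.mem_erase.1 hvmem).1
  have hvx : v ≠ x := (Finset.mem_erase.1 (Finset.mem_erase.1 hvmem).2).1
  have hvT : v ∈ T := (Finset.mem_erase.1 (Finset.mem_erase.1 hvmem).2).2
  have hne1 : ∀ χ ∈ T, (χ : G → ℂ) ≠ (fun _ => 1) := by
    intro χ hχ h
    rw [hTdef] at hχ
    apply (Finset.mem_erase.1 hχ).1
    apply Subtype.ext
    rw [h]
    funext g
    exact (hone1 g).symm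
  have hsumT : ∀ F : IrrCharacter G → ℂ, ∑ χ ∈ T, F χ = F x + (F w + F v) := by
    intro F
    rw [← Finset.add_sum_erase T F hxT, ← Finset.add_sum_erase (T.erase x) F hwT', hv,
      Finset.sum_singleton]
  refine ⟨x, v, w, n v, hpm v hvT, hne1 x hxT, hne1 v hvT, hvx.symm, hxw, hvw, ?_, ?_, ?_, ?_, ?_, ?_⟩
  · ext χ
    simp only [Set.mem_ofPred_eq]
    constructor
    · intro hχ
      by_cases h1 : χ = one
      · left; rw [h1]; funext g; exact hone1 g
      · by_cases h2 : χ = x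
        · right; left; exact h2
        · by_cases h3 : χ = w
          · right; right; right; exact h3
          · right; right; left
            have : χ ∈ (T.erase x).erase w := by
              rw [Finset.mem_erase, Finset.mem_erase, hTdef, Finset.mem_erase]
              exact ⟨h3, h2, h1, (hB0 χ).2 hχ⟩
            rw [hv] at this
            exact Finset.mem_singleton.1 this
    · rintro (h | rfl | rfl | rfl)
      · have : χ = one := by
          apply Subtype.ext
          rw [h]; funext g; exact (hone1 g).symm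
        rw [this]; exact honeB
      · exact hTB _ hxT
      · exact hTB _ hvT
      · exact hTB _ hwT
  · intro t ht
    refine ⟨?_, hconj v t ht, ?_⟩
    · rw [hconj x t ht, hx]; simp
    · rw [hconj w t ht, hw]; simp
  · have := klein_degree P hP hone hz2 x (n x) (hn x)
    rwa [hx] at this
  · exact klein_degree P hP hone hz2 v (n v) (hn v)
  · have := klein_degree P hP hone hz2 w (n w) (hn w)
    rw [hw] at this
    simpa using this
  · intro y hy
    have h1 := horth y hy
    rw [hsumT, hx, hw] at h1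
    push_cast at h1
    linear_combination h1

end Cfsg.Agent.Lib.Helper7
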